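import Cfsg.Agent.RealVector.Heis

/-!
A faithful module with an invariant nondegenerate bilinear form has a weight.
-/

set_option autoImplicit false

namespace CfsgLib.RealVector

open Cfsg CfsgLib.CharBasics CfsgLib.Blocks

universe u v

variable {p : ℕ} [hp : Fact p.Prime] {C : Type u} [Group C] [Fintype C]
variable {S : Type v} [AddCommGroup S] [Module (ZMod p) S] [Finite S]
variable {M : Ideal AlgInt} {N : ℕ}

/-- The restriction to an invariant submodule. -/
def subRep (ρ : Representation (ZMod p) C S) (U : Submodule (ZMod p) S) (h : ∀ g, ∀ u ∈ U, ρ g u ∈ U) :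
    Representation (ZMod p) C U where
  toFun g := (ρ g).restrict (h g)
  map_one' := LinearMap.ext fun u => Subtype.ext (by simp [LinearMap.restrict_apply])
  map_mul' a b := LinearMap.ext fun u => Subtype.ext (by simp [LinearMap.restrict_apply])

@[simp] theorem coe_subRep (ρ : Representation (ZMod p) C S) (U : Submodule (ZMod p) S)
    (h : ∀ g, ∀ u ∈ U, ρ g u ∈ U) (g : C) (u : U) : ((subRep ρ U h g u : U) : S) = ρ g u := rfl

theorem fixCard_prod {T D : Type v} [AddCommGroup T] [Module (ZMod p) T] [AddCommGroup D] [Module (ZMod p) D]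
    [Finite T] [Finite D] (σ : Representation (ZMod p) C T) (τ : Representation (ZMod p) C D) (x : C) :
    fixCard (σ.prod τ) x = fixCard σ x * fixCard τ x := by
  rw [fixCard, fixCard, fixCard, ← Nat.card_prod]
  exact Nat.card_congr
    { toFun := fun z => (⟨z.1.1, congrArg Prod.fst z.2⟩, ⟨z.1.2, congrArg Prod.snd z.2⟩)
      invFun := fun z => ⟨(z.1.1, z.2.1), Prod.ext z.1.2 z.2.2⟩
      left_inv := fun _ => rfl
      right_inv := fun _ => rfl }

/-- A weight on an embedded module which moves as much is a weight. -/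
theorem HasTheta.embed {T : Type v} [AddCommGroup T] [Module (ZMod p) T] [Finite T]
    {σ : Representation (ZMod p) C T} {ρ : Representation (ZMod p) C S}
    (h : HasTheta p M N (Nat.card T) (fixCard σ)) (ι : T →ₗ[ZMod p] S) (hι : Function.Injective ι)
    (heq : ∀ g t, ι (σ g t) = ρ g (ι t)) (hker : ∀ x, (∀ t, σ x t = t) → ∀ u, ρ x u = u) :
    HasTheta p M N (Nat.card S) (fixCard ρ) := by
  refine h.mono Nat.card_pos (fun x => ?_) fun x hx ht =>
    hx ((fixCard_eq_iff ρ x).2 (hker x ((fixCard_eq_iff σ x).1 ht)))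
  set A := LinearMap.range ι
  have hA : Nat.card A = Nat.card T := (Nat.card_congr (LinearEquiv.ofInjective ι hι).toEquiv).symm
  have hAF : Nat.card (A ⊓ fixSub ρ x : Submodule (ZMod p) S) = fixCard σ x := by
    refine (Nat.card_eq_of_bijective (fun t : fixSub σ x => (⟨ι t, ⟨_, rfl⟩, by
      show ρ x (ι t) = ι t
      rw [← heq, show σ x (t : T) = t from t.2]⟩ : (A ⊓ fixSub ρ x : Submodule (ZMod p) S))) ⟨?_, ?_⟩).symm
    · exact fun a b hab => Subtype.ext (hι (congrArg Subtype.val hab))
    · rintro ⟨_, ⟨t, rfl⟩, ht⟩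
      exact ⟨⟨t, hι ((heq x t).trans ht)⟩, rfl⟩
  have h1 := Submodule.finrank_sup_add_finrank_inf_eq A (fixSub ρ x)
  have h2 := Submodule.finrank_le (A ⊔ fixSub ρ x)
  rw [← hA, ← hAF, fixCard, card_eq_pow, card_eq_pow, card_eq_pow,
    Module.natCard_eq_pow_finrank (K := ZMod p) (V := S), Nat.card_zmod, ← pow_add, ← pow_add]
  exact Nat.pow_le_pow_right hp.out.pos (by omega)

/-- Invariant complements. -/
theorem exists_inv_compl (hpC : ¬ p ∣ Nat.card C) (ρ : Representation (ZMod p) C S)
    (R : Submodule (ZMod p) S) (hR : ∀ g, ∀ u ∈ R, ρ g u ∈ R) :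
    ∃ T : Submodule (ZMod p) S, (∀ g, ∀ u ∈ T, ρ g u ∈ T) ∧ IsCompl R T := by
  classical
  obtain ⟨T0, hT0⟩ := exists_isCompl R
  set P0 : S →ₗ[ZMod p] S := R.subtype.comp (Submodule.linearProjOfIsCompl R T0 hT0)
  have hP0 : ∀ u, P0 u ∈ R := fun u => (Submodule.linearProjOfIsCompl R T0 hT0 u).2
  have hP0' : ∀ u ∈ R, P0 u = u := fun u hu =>
    congrArg Subtype.val (Submodule.linearProjOfIsCompl_apply_left hT0 ⟨u, hu⟩)
  set P : S →ₗ[ZMod p] S := (Nat.card C : ZMod p)⁻¹ • ∑ g : C, (ρ g).comp (P0.comp (ρ g⁻¹))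
  have hPapp : ∀ u, P u = (Nat.card C : ZMod p)⁻¹ • ∑ g : C, ρ g (P0 (ρ g⁻¹ u)) := fun u => by simp [P]
  have hcard : (Nat.card C : ZMod p) ≠ 0 := fun h => hpC ((ZMod.natCast_eq_zero_iff _ _).1 h)
  have hPmem : ∀ u, P u ∈ R := fun u => by
    rw [hPapp]
    exact R.smul_mem _ (R.sum_mem fun g _ => hR g _ (hP0 _))
  have hPfix : ∀ u ∈ R, P u = u := fun u hu => by
    rw [hPapp, Finset.sum_congr rfl (g := fun _ => u) (fun g _ => by
      rw [hP0' _ (hR g⁻¹ u hu), ← Module.End.mul_apply, ← map_mul, mul_inv_cancel, map_one, Module.End.one_apply]),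
      Finset.sum_const, Finset.card_univ, ← Nat.card_eq_fintype_card, ← Nat.cast_smul_eq_nsmul (ZMod p),
      smul_smul, inv_mul_cancel₀ hcard, one_smul]
  have hPcomm : ∀ h u, P (ρ h u) = ρ h (P u) := fun h u => by
    rw [hPapp, hPapp, map_smul, map_sum]
    congr 1
    refine (Fintype.sum_equiv (Equiv.mulLeft h) _ _ fun g => ?_).symm
    have e : ρ (h * g)⁻¹ (ρ h u) = ρ g⁻¹ u := by
      rw [← Module.End.mul_apply, ← map_mul, mul_inv_rev, inv_mul_cancel_right]
    rw [Equiv.coe_mulLeft, e, map_mul, Module.End.mul_apply]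
  refine ⟨LinearMap.ker P, fun g u hu => by
    rw [LinearMap.mem_ker] at hu ⊢
    rw [hPcomm, hu, map_zero], ?_, ?_⟩
  · rw [Submodule.disjoint_def]
    intro u hu hu'
    rw [← hPfix u hu]; exact hu'
  · rw [codisjoint_iff, eq_top_iff]
    intro u _
    rw [← add_sub_cancel (P u) u]
    refine Submodule.add_mem_sup (hPmem u) ?_
    rw [LinearMap.mem_ker, map_sub, hPfix _ (hPmem u), sub_self]

theorem zmod_two_cases : ∀ c : ZMod 2, c = 0 ∨ c = 1 := by decide

/-- An invariant alternating form in characteristic two has an invariant quadratic form. -/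
theorem exists_quadratic_two (h2 : p = 2) (hpC : ¬ p ∣ Nat.card C) (ρ : Representation (ZMod p) C S)
    (a : S →ₗ[ZMod p] S →ₗ[ZMod p] ZMod p) (ha : InvForm ρ a) (halt : ∀ u, a u u = 0) :
    ∃ q : S → ZMod p, (∀ u w, q (u + w) = q u + q w + a u w) ∧ ∀ x u, q (ρ x u) = q u := by
  classical
  subst h2
  let bs := Module.finBasis (ZMod 2) S
  let B : S →ₗ[ZMod 2] S →ₗ[ZMod 2] ZMod 2 :=
    bs.constr (ZMod 2) fun i => bs.constr (ZMod 2) fun j => if i < j then a (bs i) (bs j) else 0
  have hB : B + B.flip = a := by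
    refine bs.ext fun i => bs.ext fun j => ?_
    simp only [LinearMap.add_apply, LinearMap.flip_apply, B, Module.Basis.constr_basis]
    have hskew : a (bs j) (bs i) = a (bs i) (bs j) := by
      have := halt (bs i + bs j)
      simp only [map_add, LinearMap.add_apply, halt, zero_add, add_zero] at this
      rw [eq_neg_of_add_eq_zero_left this, ZMod.neg_eq_self_mod_two]
    rcases lt_trichotomy i j with h | rfl | h
    · simp [h, not_lt_of_gt h]
    · simp [halt]
    · simp [h, not_lt_of_gt h, hskew]
  refine ⟨fun u => ∑ g : C, B (ρ g u) (ρ g u), fun u w => ?_, fun x u => ?_⟩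
  · have hC : (Nat.card C : ZMod 2) = 1 := by
      have h : ((Nat.card C : ℕ) : ZMod 2) ≠ 0 := fun h => hpC ((ZMod.natCast_eq_zero_iff _ _).1 h)
      revert h
      generalize ((Nat.card C : ℕ) : ZMod 2) = c
      exact fun hne => (zmod_two_cases c).resolve_left hne
    calc ∑ g : C, B (ρ g (u + w)) (ρ g (u + w))
        = ∑ g : C, (B (ρ g u) (ρ g u) + B (ρ g w) (ρ g w) + a u w) := Finset.sum_congr rfl fun g _ => by
          rw [← ha g u w, ← hB]
          simp only [map_add, LinearMap.add_apply, LinearMap.flip_apply]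
          ring
      _ = _ := by
          rw [Finset.sum_add_distrib, Finset.sum_add_distrib, Finset.sum_const, Finset.card_univ,
            ← Nat.card_eq_fintype_card, nsmul_eq_mul, hC, one_mul]
  · exact Fintype.sum_equiv (Equiv.mulRight x) _ _ fun g => by simp [← Module.End.mul_apply, ← map_mul]

/-- An irreducible module with a nondegenerate invariant form. -/
theorem hasTheta_irreducible (hM : IsPModular p M) (hN : N ≠ 0) (hpN : p ∣ N) (hCN : Nat.card C ∣ N)
    (hpC : ¬ p ∣ Nat.card C) (ρ : Representation (ZMod p) C S)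
    (hirr : ∀ U : Submodule (ZMod p) S, (∀ g, ∀ u ∈ U, ρ g u ∈ U) → U = ⊥ ∨ U = ⊤)
    (β : S →ₗ[ZMod p] S →ₗ[ZMod p] ZMod p) (hβ : InvForm ρ β) (hnd : ∀ u, (∀ w, β u w = 0) → u = 0) :
    HasTheta p M N (Nat.card S) (fixCard ρ) := by
  classical
  -- forms with a radical are zero
  have hrad : ∀ a : S →ₗ[ZMod p] S →ₗ[ZMod p] ZMod p, InvForm ρ a → a ≠ 0 → ∀ u, (∀ w, a u w = 0) → u = 0 := by
    intro a ha hne u hu
    rcases hirr (LinearMap.ker a) (fun g x hx => by
      rw [LinearMap.mem_ker] at hx ⊢
      refine LinearMap.ext fun w => ?_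
      have h := ha g x (ρ g⁻¹ w)
      rw [← Module.End.mul_apply, ← map_mul, mul_inv_cancel, map_one, Module.End.one_apply] at h
      rw [h, hx, LinearMap.zero_apply, LinearMap.zero_apply]) with h | h
    · have : u ∈ LinearMap.ker a := LinearMap.mem_ker.2 (LinearMap.ext hu)
      rwa [h, Submodule.mem_bot] at this
    · exact absurd (LinearMap.ker_eq_top.1 h) hne
  by_cases hsym : β - β.flip = 0
  · -- symmetric
    have hs : ∀ u w, β u w = β w u := fun u w => by
      have h := LinearMap.congr_fun (LinearMap.congr_fun hsym u) w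
      simp only [LinearMap.sub_apply, LinearMap.flip_apply, LinearMap.zero_apply, sub_eq_zero] at h
      exact h
    by_cases h2 : p = 2
    · subst h2
      let lam : S →ₗ[ZMod 2] ZMod 2 :=
        { toFun := fun u => β u u
          map_add' := fun u w => by
            simp only [map_add, LinearMap.add_apply, hs w u]
            have : (2 : ZMod 2) = 0 := rfl
            linear_combination (β u w) * this
          map_smul' := fun c u => by
            simp only [map_smul, LinearMap.smul_apply, smul_eq_mul, RingHom.id_apply, ← mul_assoc]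
            congr 1
            rcases zmod_two_cases c with rfl | rfl <;> simp }
      rcases hirr (LinearMap.ker lam) (fun g u hu => by
        rw [LinearMap.mem_ker] at hu ⊢
        show β _ _ = 0
        rw [hβ]; exact hu) with h | h
      · -- one-dimensional
        refine hasTheta_trivial fun x => (fixCard_eq_iff ρ x).2 fun u => ?_
        refine LinearMap.ker_eq_bot.1 h ?_
        show β _ _ = β u u
        rw [hβ]
      · obtain ⟨q, hq, hqi⟩ := exists_quadratic_two rfl hpC ρ β hβ
          (fun u => show lam u = 0 from LinearMap.congr_fun (LinearMap.ker_eq_top.1 h) u)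
        exact hasTheta_quadratic hM hN hpN hpC ρ q β hq hqi hnd
    · refine hasTheta_quadratic hM hN hpN hpC ρ (fun u => β u u) ((2 : ZMod p) • β) (fun u w => ?_)
        (fun x u => hβ x u u) fun u hu => hnd u fun w => ?_
      · simp only [map_add, LinearMap.add_apply, LinearMap.smul_apply, smul_eq_mul, hs w u]; ring
      · have h := hu w
        simp only [LinearMap.smul_apply, smul_eq_mul, mul_eq_zero] at h
        refine h.resolve_left fun h0 => h2 ?_
        have h' : ((2 : ℕ) : ZMod p) = 0 := by exact_mod_cast h0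
        rw [ZMod.natCast_eq_zero_iff] at h'
        exact (Nat.prime_dvd_prime_iff_eq hp.out Nat.prime_two).1 h'
  · set a := β - β.flip
    have ha : InvForm ρ a := fun x u w => by simp [a, hβ x u w, hβ x w u]
    have halt : ∀ u, a u u = 0 := fun u => by simp [a]
    have hnda := hrad a ha hsym
    by_cases h2 : p = 2
    · obtain ⟨q, hq, hqi⟩ := exists_quadratic_two h2 hpC ρ a ha halt
      exact hasTheta_quadratic hM hN hpN hpC ρ q a hq hqi hnda
    · exact hasTheta_symplectic hM hN hCN hpC h2 ρ a ha halt hnda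

/-- Every nondegenerate invariant form gives a weight. -/
theorem hasTheta_of_form (hM : IsPModular p M) (hN : N ≠ 0) (hpN : p ∣ N) (hCN : Nat.card C ∣ N)
    (hpC : ¬ p ∣ Nat.card C) :
    ∀ (n : ℕ) (S : Type v) [AddCommGroup S] [Module (ZMod p) S] [Finite S], Nat.card S ≤ n →
      ∀ (ρ : Representation (ZMod p) C S) (β : S →ₗ[ZMod p] S →ₗ[ZMod p] ZMod p), InvForm ρ β →
        (∀ u, (∀ w, β u w = 0) → u = 0) → HasTheta p M N (Nat.card S) (fixCard ρ) := by
  classical
  intro n
  induction n with
  | zero => exact fun S _ _ _ hS => absurd hS (Nat.not_le.2 Nat.card_pos)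
  | succ n ih =>
    intro S _ _ _ hS ρ β hβ hnd
    -- splitting off a piece
    have step : ∀ (T : Type v) [AddCommGroup T] [Module (ZMod p) T] [Finite T] [Nontrivial T]
        (σ : Representation (ZMod p) C T) (ι : T →ₗ[ZMod p] S), Function.Injective ι →
        (∀ g t, ι (σ g t) = ρ g (ι t)) → HasTheta p M N (Nat.card T) (fixCard σ) →
        HasTheta p M N (Nat.card S) (fixCard ρ) := by
      intro T _ _ _ _ σ ι hι heq hT
      let K : Subgroup C :=
        { carrier := {g | ∀ t, σ g t = t}
          one_mem' := fun t => by simp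
          mul_mem' := fun {a b} ha hb t => by rw [map_mul, Module.End.mul_apply, hb, ha]
          inv_mem' := fun {a} ha t => by
            conv_lhs => rw [← ha t]
            rw [← Module.End.mul_apply, ← map_mul, inv_mul_cancel, map_one, Module.End.one_apply] }
      haveI hKn : K.Normal := ⟨fun k hk g t => by
        rw [map_mul, map_mul, Module.End.mul_apply, Module.End.mul_apply, hk, ← Module.End.mul_apply, ← map_mul,
          mul_inv_cancel, map_one, Module.End.one_apply]⟩
      haveI : Fintype K := Fintype.ofFinite _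
      have hcomm : ∀ g u, avgP ρ K (ρ g u) = ρ g (avgP ρ K u) := by
        intro g u
        rw [avgP_apply, avgP_apply, map_smul, map_sum]
        congr 1
        refine (Fintype.sum_equiv (MulAut.conjNormal (H := K) g).toEquiv _ _ fun k => ?_).symm
        show _ = ρ ((MulAut.conjNormal g k : K) : C) (ρ g u)
        rw [MulAut.conjNormal_apply, ← Module.End.mul_apply, ← Module.End.mul_apply, ← map_mul, ← map_mul,
          inv_mul_cancel_right]
      set D := LinearMap.ker (avgP ρ K)
      have hD : ∀ g, ∀ u ∈ D, ρ g u ∈ D := fun g u hu => by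
        rw [LinearMap.mem_ker] at hu ⊢
        rw [hcomm, hu, map_zero]
      have hfixT : ∀ t, avgP ρ K (ι t) = ι t := fun t =>
        avgP_fixed ρ K hpC fun g hg => by rw [← heq, show σ g t = t from hg t]
      have hlt : Nat.card D < Nat.card S := by
        refine lt_of_le_of_ne (Nat.card_le_card_of_injective (Subtype.val : D → S) Subtype.val_injective) fun h => ?_
        obtain ⟨t, ht⟩ := exists_ne (0 : T)
        refine ht (hι ?_)
        have hDtop : D.toAddSubgroup = ⊤ := AddSubgroup.eq_top_of_card_eq _ h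
        have hmem : ι t ∈ D := show ι t ∈ D.toAddSubgroup by rw [hDtop]; trivial
        rw [LinearMap.mem_ker, hfixT] at hmem
        rw [hmem, map_zero]
      have hth := (hT.prod hM hN (ih D (by omega) (subRep ρ D hD) (β.compl₁₂ D.subtype D.subtype)
        (fun g u w => hβ g u w) fun u hu => Subtype.ext
          (ker_nondeg ρ K hpC hβ hnd u.2 fun w hw => hu ⟨w, hw⟩)))
      rw [← Nat.card_prod, show (fun x => fixCard σ x * fixCard (subRep ρ D hD) x) =
        fixCard (σ.prod (subRep ρ D hD)) from funext fun x => (fixCard_prod σ _ x).symm] at hth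
      refine hth.embed (ι.coprod D.subtype) ?_ (fun g z => ?_) fun x hx u => ?_
      · rintro ⟨t, d⟩ ⟨t', d'⟩ h
        rw [LinearMap.coprod_apply, LinearMap.coprod_apply, Submodule.subtype_apply, Submodule.subtype_apply] at h
        have h1 := congrArg (avgP ρ K) h
        rw [map_add, map_add, LinearMap.mem_ker.1 d.2, LinearMap.mem_ker.1 d'.2, add_zero, add_zero,
          hfixT, hfixT] at h1
        exact Prod.ext (hι h1) (Subtype.ext (by rwa [h1, add_right_inj] at h))
      · show ι (σ g z.1) + _ = ρ g (ι z.1 + (z.2 : S))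
        rw [map_add, heq]; rfl
      · have hxK : x ∈ K := fun t => congrArg Prod.fst (hx (t, 0))
        have hxD : ∀ d : D, ρ x (d : S) = d := fun d => congrArg (fun z => ((z.2 : D) : S)) (hx (0, d))
        rw [← add_sub_cancel (avgP ρ K u) u, map_add, act_avgP ρ K hxK, hxD ⟨_, sub_avgP_mem ρ K hpC u⟩]
    -- an irreducible submodule
    rcases subsingleton_or_nontrivial S with hss | hnt
    · exact hasTheta_trivial fun x => (fixCard_eq_iff ρ x).2 fun u => Subsingleton.elim _ _
    obtain ⟨U, hU⟩ := Set.Finite.exists_minimal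
      (Set.toFinite {U : Submodule (ZMod p) S | U ≠ ⊥ ∧ ∀ g, ∀ u ∈ U, ρ g u ∈ U})
      ⟨⊤, top_ne_bot, fun _ _ _ => trivial⟩
    obtain ⟨hUb, hUi⟩ := hU.prop
    haveI : Nontrivial U := (Submodule.nontrivial_iff_ne_bot).2 hUb
    have hirr : ∀ U' : Submodule (ZMod p) U, (∀ g, ∀ u ∈ U', subRep ρ U hUi g u ∈ U') → U' = ⊥ ∨ U' = ⊤ := by
      intro U' hU'
      by_cases hb : U' = ⊥
      · exact Or.inl hb
      refine Or.inr ?_
      have hle : U'.map U.subtype ≤ U := Submodule.map_subtype_le U U'
      have h1 := hU.le_of_le (y := U'.map U.subtype) ⟨fun h => hb (Submodule.map_injective_of_injective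
        U.injective_subtype (by rw [h, Submodule.map_bot])), ?_⟩ hle
      · rw [eq_top_iff]
        intro u _
        obtain ⟨w, hw, he⟩ := h1 u.2
        rwa [← Subtype.ext he]
      · rintro g _ ⟨w, hw, rfl⟩
        exact ⟨_, hU' g w hw, rfl⟩
    by_cases hzero : β.compl₁₂ U.subtype U.subtype = 0
    · -- pair `U` with a dual copy
      let R : Submodule (ZMod p) S :=
        { carrier := {w | ∀ u ∈ U, β u w = 0}
          zero_mem' := fun u _ => map_zero _
          add_mem' := fun {a b} ha hb u hu => by rw [map_add, ha u hu, hb u hu, add_zero]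
          smul_mem' := fun c a ha u hu => by rw [map_smul, ha u hu, smul_zero] }
      have hR : ∀ g, ∀ w ∈ R, ρ g w ∈ R := fun g w hw u hu => by
        have h := hβ g (ρ g⁻¹ u) w
        rw [← Module.End.mul_apply, ← map_mul, mul_inv_cancel, map_one, Module.End.one_apply] at h
        rw [h]
        exact hw _ (hUi _ u hu)
      obtain ⟨T, hTi, hRT⟩ := exists_inv_compl hpC ρ R hR
      have hβU : ∀ u ∈ U, ∀ w ∈ U, β u w = 0 := fun u hu w hw =>
        LinearMap.congr_fun (LinearMap.congr_fun hzero ⟨u, hu⟩) ⟨w, hw⟩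
      let ι : U × T →ₗ[ZMod p] S := U.subtype.coprod T.subtype
      have hι : Function.Injective ι := by
        rw [injective_iff_map_eq_zero]
        rintro ⟨u, t⟩ h
        have h' : (u : S) + t = 0 := h
        have ht : (t : S) = 0 := by
          refine Submodule.disjoint_def.1 hRT.disjoint (t : S) (fun s hs => ?_) t.2
          rw [eq_neg_of_add_eq_zero_right h', map_neg, hβU s hs u u.2, neg_zero]
        rw [ht, add_zero] at h'
        exact Prod.ext (Subtype.ext h') (Subtype.ext ht)
      refine step (U × T) ((subRep ρ U hUi).prod (subRep ρ T hTi)) ι hι (fun g z => ?_) ?_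
      · show ρ g (z.1 : S) + ρ g (z.2 : S) = ρ g ((z.1 : S) + z.2)
        rw [map_add]
      let B : U × T →ₗ[ZMod p] U × T →ₗ[ZMod p] ZMod p :=
        (β.compl₁₂ (U.subtype.comp (LinearMap.fst _ U T)) (T.subtype.comp (LinearMap.snd _ U T)))
      refine hasTheta_quadratic hM hN hpN hpC _ (fun z => β z.1 z.2) (B + B.flip) (fun z z' => ?_)
        (fun g z => hβ g _ _) fun z hz => ?_
      · simp only [B, Prod.fst_add, Prod.snd_add, Submodule.coe_add, map_add, LinearMap.add_apply,
          LinearMap.flip_apply, LinearMap.compl₁₂_apply, LinearMap.comp_apply, LinearMap.fst_apply,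
          LinearMap.snd_apply, Submodule.subtype_apply]
        ring
      · have e : ∀ (u : U) (t : T), β z.1 t + β u z.2 = 0 := fun u t => by
          simpa [B] using hz (u, t)
        have hu0 : (z.1 : S) = 0 := by
          refine hnd _ fun w => ?_
          obtain ⟨r, hr, t, ht, rfl⟩ := Submodule.mem_sup.1 (show w ∈ R ⊔ T by rw [hRT.sup_eq_top]; trivial)
          have := e 0 ⟨t, ht⟩
          rw [Submodule.coe_zero, map_zero, LinearMap.zero_apply, add_zero] at this
          rw [map_add, this, hr _ z.1.2, add_zero]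
        refine Prod.ext (Subtype.ext hu0) (Subtype.ext ?_)
        refine Submodule.disjoint_def.1 hRT.disjoint (z.2 : S) (fun s hs => ?_) z.2.2
        have := e ⟨s, hs⟩ 0
        rwa [Submodule.coe_zero, map_zero, zero_add] at this
    · refine step U (subRep ρ U hUi) U.subtype U.injective_subtype (fun g t => rfl) ?_
      have hinvU : InvForm (subRep ρ U hUi) (β.compl₁₂ U.subtype U.subtype) := fun g u w => hβ g u w
      refine hasTheta_irreducible hM hN hpN hCN hpC _ hirr _ hinvU fun u hu => ?_
      rcases hirr (LinearMap.ker (β.compl₁₂ U.subtype U.subtype)) (fun g x hx => by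
        rw [LinearMap.mem_ker] at hx ⊢
        refine LinearMap.ext fun w => ?_
        have h := hinvU g x (subRep ρ U hUi g⁻¹ w)
        rw [← Module.End.mul_apply, ← map_mul, mul_inv_cancel, map_one, Module.End.one_apply] at h
        rw [h, hx, LinearMap.zero_apply, LinearMap.zero_apply]) with h | h
      · have : u ∈ LinearMap.ker (β.compl₁₂ U.subtype U.subtype) := LinearMap.mem_ker.2 (LinearMap.ext hu)
        rwa [h, Submodule.mem_bot] at this
      · exact absurd (LinearMap.ker_eq_top.1 h) hzero

end CfsgLib.RealVector
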