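import Cfsg.Agent.RealVector.Gen
import Mathlib.NumberTheory.LegendreSymbol.AddCharacter

/-!
Coprime averaging in modules over `ZMod p`, and Gauss sums over the fixed points.
-/

set_option autoImplicit false

namespace CfsgLib.RealVector

open Cfsg CfsgLib.CharBasics CfsgLib.Blocks
open scoped ComplexConjugate

universe u v

variable {p : ℕ} [hp : Fact p.Prime] {C : Type u} [Group C] [Fintype C]
variable {S : Type v} [AddCommGroup S] [Module (ZMod p) S] [Finite S]

/-- The fixed points of one element. -/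
def fixSub (ρ : Representation (ZMod p) C S) (x : C) : Submodule (ZMod p) S :=
  LinearMap.eqLocus (ρ x) LinearMap.id

theorem mem_fixSub {ρ : Representation (ZMod p) C S} {x : C} {u : S} : u ∈ fixSub ρ x ↔ ρ x u = u := Iff.rfl

/-- The number of fixed points. -/
noncomputable def fixCard (ρ : Representation (ZMod p) C S) (x : C) : ℕ := Nat.card (fixSub ρ x)

theorem card_eq_pow (U : Submodule (ZMod p) S) : Nat.card U = p ^ Module.finrank (ZMod p) U := by
  rw [Module.natCard_eq_pow_finrank (K := ZMod p), Nat.card_zmod]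

theorem fixCard_one (ρ : Representation (ZMod p) C S) : fixCard ρ 1 = Nat.card S :=
  Nat.card_congr (Equiv.subtypeUnivEquiv fun u => by simp [mem_fixSub])

theorem fixCard_dvd (ρ : Representation (ZMod p) C S) (x : C) : fixCard ρ x ∣ Nat.card S :=
  AddSubgroup.card_addSubgroup_dvd_card (fixSub ρ x).toAddSubgroup

theorem fixCard_eq_iff (ρ : Representation (ZMod p) C S) (x : C) :
    fixCard ρ x = Nat.card S ↔ ∀ u, ρ x u = u := by
  refine ⟨fun h u => ?_, fun h => Nat.card_congr (Equiv.subtypeUnivEquiv fun u => h u)⟩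
  have h1 : (fixSub ρ x).toAddSubgroup = ⊤ := AddSubgroup.eq_top_of_card_eq _ h
  exact (show u ∈ (fixSub ρ x).toAddSubgroup by rw [h1]; trivial)

/-- The elements fixing a vector. -/
def stabVec (ρ : Representation (ZMod p) C S) (u : S) : Subgroup C where
  carrier := {g | ρ g u = u}
  one_mem' := by simp
  mul_mem' := fun {a b} ha hb => by
    show ρ (a * b) u = u
    rw [map_mul, Module.End.mul_apply, show ρ b u = u from hb]
    exact ha
  inv_mem' := fun {a} ha => by
    show ρ a⁻¹ u = u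
    conv_lhs => rw [← show ρ a u = u from ha]
    rw [← Module.End.mul_apply, ← map_mul, inv_mul_cancel, map_one, Module.End.one_apply]

theorem fix_zpowers_iff (ρ : Representation (ZMod p) C S) (x : C) (u : S) :
    (∀ h ∈ Subgroup.zpowers x, ρ h u = u) ↔ ρ x u = u :=
  ⟨fun h => h x (Subgroup.mem_zpowers x), fun h _ hg =>
    (show Subgroup.zpowers x ≤ stabVec ρ u by rwa [Subgroup.zpowers_le]) hg⟩

/-- The averaging projection of a subgroup. -/
noncomputable def avgP (ρ : Representation (ZMod p) C S) (H : Subgroup C) [Fintype H] : S →ₗ[ZMod p] S :=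
  (Nat.card H : ZMod p)⁻¹ • ∑ h : H, ρ h

/-- An invariant form. -/
def InvForm (ρ : Representation (ZMod p) C S) (b : S →ₗ[ZMod p] S →ₗ[ZMod p] ZMod p) : Prop :=
  ∀ x u w, b (ρ x u) (ρ x w) = b u w

section Avg

variable (ρ : Representation (ZMod p) C S) (H : Subgroup C) [Fintype H]

theorem avgP_apply (u : S) : avgP ρ H u = (Nat.card H : ZMod p)⁻¹ • ∑ h : H, ρ h u := by
  simp [avgP]

theorem act_avgP {g : C} (hg : g ∈ H) (u : S) : ρ g (avgP ρ H u) = avgP ρ H u := by
  rw [avgP_apply, map_smul, map_sum]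
  congr 1
  exact Fintype.sum_equiv (Equiv.mulLeft ⟨g, hg⟩) _ _ fun h => by
    rw [← Module.End.mul_apply, ← map_mul]; rfl

theorem avgP_act {g : C} (hg : g ∈ H) (u : S) : avgP ρ H (ρ g u) = avgP ρ H u := by
  rw [avgP_apply, avgP_apply]
  congr 1
  exact Fintype.sum_equiv (Equiv.mulRight ⟨g, hg⟩) _ _ fun h => by
    rw [← Module.End.mul_apply, ← map_mul]; rfl

theorem cast_card_ne_zero (hpC : ¬ p ∣ Nat.card C) : (Nat.card H : ZMod p) ≠ 0 := fun h =>
  hpC (((ZMod.natCast_eq_zero_iff _ _).1 h).trans (Subgroup.card_subgroup_dvd_card H))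

theorem avgP_fixed (hpC : ¬ p ∣ Nat.card C) {u : S} (h : ∀ g ∈ H, ρ g u = u) : avgP ρ H u = u := by
  rw [avgP_apply, Finset.sum_congr rfl (fun (g : H) _ => h g g.2), Finset.sum_const, Finset.card_univ,
    ← Nat.card_eq_fintype_card, ← Nat.cast_smul_eq_nsmul (ZMod p), smul_smul,
    inv_mul_cancel₀ (cast_card_ne_zero H hpC), one_smul]

theorem avgP_form {b : S →ₗ[ZMod p] S →ₗ[ZMod p] ZMod p} (hb : InvForm ρ b) (u w : S) :
    b (avgP ρ H u) w = b u (avgP ρ H w) := by
  rw [avgP_apply, avgP_apply, map_smul, LinearMap.smul_apply, map_sum, LinearMap.sum_apply, map_smul, map_sum]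
  congr 1
  refine Fintype.sum_equiv (Equiv.inv H) _ _ fun h => ?_
  rw [← hb ((h : C)⁻¹) (ρ h u) w, ← Module.End.mul_apply, ← map_mul, inv_mul_cancel, map_one, Module.End.one_apply]
  rfl

theorem avgP_idem (hpC : ¬ p ∣ Nat.card C) (u : S) : avgP ρ H (avgP ρ H u) = avgP ρ H u :=
  avgP_fixed ρ H hpC fun _ hg => act_avgP ρ H hg u

theorem sub_avgP_mem (hpC : ¬ p ∣ Nat.card C) (u : S) : u - avgP ρ H u ∈ LinearMap.ker (avgP ρ H) := by
  rw [LinearMap.mem_ker, map_sub, avgP_idem ρ H hpC, sub_self]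

theorem ker_nondeg (hpC : ¬ p ∣ Nat.card C) {b : S →ₗ[ZMod p] S →ₗ[ZMod p] ZMod p} (hb : InvForm ρ b)
    (hnd : ∀ u, (∀ w, b u w = 0) → u = 0) {u : S} (hu : avgP ρ H u = 0)
    (h : ∀ w, avgP ρ H w = 0 → b u w = 0) : u = 0 := hnd u fun w => by
  have h1 := h _ (LinearMap.mem_ker.1 (sub_avgP_mem ρ H hpC w))
  rw [map_sub, ← avgP_form ρ H hb, hu, map_zero, LinearMap.zero_apply, sub_zero] at h1
  exact h1

theorem range_nondeg {b : S →ₗ[ZMod p] S →ₗ[ZMod p] ZMod p} (hb : InvForm ρ b)
    (hnd : ∀ u, (∀ w, b u w = 0) → u = 0) {u : S} (hu : avgP ρ H u = u)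
    (h : ∀ w, b u (avgP ρ H w) = 0) : u = 0 := hnd u fun w => by
  rw [← hu, avgP_form ρ H hb]
  exact h w

theorem form_fixed_ker {b : S →ₗ[ZMod p] S →ₗ[ZMod p] ZMod p} (hb : InvForm ρ b) {u w : S}
    (hu : avgP ρ H u = u) (hw : avgP ρ H w = 0) : b u w = 0 := by
  rw [← hu, avgP_form ρ H hb, hw, map_zero]

end Avg

theorem ker_avgP_eq (ρ : Representation (ZMod p) C S) (x : C) [Fintype (Subgroup.zpowers x)]
    (hpC : ¬ p ∣ Nat.card C) :
    LinearMap.ker (avgP ρ (Subgroup.zpowers x)) = LinearMap.range (LinearMap.id - ρ x) := by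
  have hle : LinearMap.range (LinearMap.id - ρ x) ≤ LinearMap.ker (avgP ρ (Subgroup.zpowers x)) := by
    rintro _ ⟨u, rfl⟩
    rw [LinearMap.mem_ker, LinearMap.sub_apply, LinearMap.id_apply, map_sub,
      avgP_act ρ _ (Subgroup.mem_zpowers x), sub_self]
  refine (Submodule.eq_of_le_of_finrank_eq hle ?_).symm
  have h1 := LinearMap.finrank_range_add_finrank_ker (LinearMap.id - ρ x)
  have h2 := LinearMap.finrank_range_add_finrank_ker (avgP ρ (Subgroup.zpowers x))
  have h3 : LinearMap.ker (LinearMap.id - ρ x) = LinearMap.range (avgP ρ (Subgroup.zpowers x)) := by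
    ext u
    rw [LinearMap.mem_ker, LinearMap.sub_apply, LinearMap.id_apply, sub_eq_zero]
    constructor
    · intro h
      exact ⟨u, avgP_fixed ρ _ hpC ((fix_zpowers_iff ρ x u).2 h.symm)⟩
    · rintro ⟨w, rfl⟩
      exact (act_avgP ρ _ (Subgroup.mem_zpowers x) w).symm
  rw [h3] at h1
  omega

/-- The fixed points and `[S, x]` decompose the space. -/
theorem fix_decomp (ρ : Representation (ZMod p) C S) (x : C) (hpC : ¬ p ∣ Nat.card C) :
    IsCompl (fixSub ρ x) (LinearMap.range (LinearMap.id - ρ x)) ∧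
    ∀ b : S →ₗ[ZMod p] S →ₗ[ZMod p] ZMod p, InvForm ρ b →
      (∀ u ∈ fixSub ρ x, ∀ w ∈ LinearMap.range (LinearMap.id - ρ x), b u w = 0) ∧
      ((∀ u, (∀ w, b u w = 0) → u = 0) →
        (∀ u ∈ fixSub ρ x, (∀ w ∈ fixSub ρ x, b u w = 0) → u = 0) ∧
        ∀ u ∈ LinearMap.range (LinearMap.id - ρ x),
          (∀ w ∈ LinearMap.range (LinearMap.id - ρ x), b u w = 0) → u = 0) := by
  classical
  haveI : Fintype (Subgroup.zpowers x) := Fintype.ofFinite _
  rw [← ker_avgP_eq ρ x hpC]
  have hfix : ∀ u ∈ fixSub ρ x, avgP ρ (Subgroup.zpowers x) u = u := fun u hu => avgP_fixed ρ (Subgroup.zpowers x) hpC ((fix_zpowers_iff ρ x u).2 hu)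
  have hmem : ∀ w, avgP ρ (Subgroup.zpowers x) w ∈ fixSub ρ x := fun w => act_avgP ρ (Subgroup.zpowers x) (Subgroup.mem_zpowers x) w
  refine ⟨⟨?_, ?_⟩, fun b hb => ⟨fun u hu w hw => form_fixed_ker ρ (Subgroup.zpowers x) hb (hfix u hu) (LinearMap.mem_ker.1 hw), fun hnd => ⟨?_, ?_⟩⟩⟩
  · rw [Submodule.disjoint_def]
    intro u hu hu'
    rw [← hfix u hu]; exact LinearMap.mem_ker.1 hu'
  · rw [codisjoint_iff, eq_top_iff]
    intro u _
    rw [← add_sub_cancel (avgP ρ (Subgroup.zpowers x) u) u]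
    exact Submodule.add_mem_sup (hmem u) (sub_avgP_mem ρ (Subgroup.zpowers x) hpC u)
  · exact fun u hu h => range_nondeg ρ (Subgroup.zpowers x) hb hnd (hfix u hu) fun w => h _ (hmem w)
  · exact fun u hu h => ker_nondeg ρ (Subgroup.zpowers x) hpC hb hnd (LinearMap.mem_ker.1 hu) fun w hw => h w (LinearMap.mem_ker.2 hw)

section Gauss

/-- The standard additive character of `ZMod p`. -/
noncomputable def ep (p : ℕ) [hp : Fact p.Prime] : AddChar (ZMod p) ℂ :=
  AddChar.zmodChar p ((zetaRoot_prim hp.out.ne_zero).pow_eq_one)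

theorem ep_ne_one_at {a : ZMod p} (ha : a ≠ 0) : ep p a ≠ 1 := by
  rw [ep, AddChar.zmodChar_apply]
  intro h
  have h1 := Nat.le_of_dvd ?_ ((zetaRoot_prim hp.out.ne_zero).dvd_of_pow_eq_one _ h)
  · exact absurd h1 (Nat.not_le.2 (ZMod.val_lt a))
  · exact Nat.pos_of_ne_zero fun h0 => ha ((ZMod.val_eq_zero a).1 h0)

theorem ep_pow (a : ZMod p) : ep p a ^ p = 1 := by
  rw [← AddChar.map_nsmul_eq_pow, ← Nat.cast_smul_eq_nsmul (ZMod p), ZMod.natCast_self, zero_smul,
    AddChar.map_zero_eq_one]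

theorem conj_ep (a : ZMod p) : conj (ep p a) = ep p (-a) := by
  rw [← Complex.inv_eq_conj (Complex.norm_eq_one_of_pow_eq_one (ep_pow a) hp.out.ne_zero),
    AddChar.map_neg_eq_inv]

/-- The Gauss sum over a submodule. -/
noncomputable def gauss (q : S → ZMod p) (U : Submodule (ZMod p) S) : ℂ :=
  letI := Fintype.ofFinite U
  ∑ u : U, ep p (q u)

theorem gauss_eq (q : S → ZMod p) (U : Submodule (ZMod p) S) [Fintype U] :
    gauss q U = ∑ u : U, ep p (q u) := by
  rw [gauss]
  exact Finset.sum_congr (by ext; simp) fun _ _ => rfl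

theorem gauss_mem_Rz {N : ℕ} (hN : N ≠ 0) (hpN : p ∣ N) (q : S → ZMod p) (U : Submodule (ZMod p) S) :
    gauss q U ∈ Rz N := by
  classical
  haveI := Fintype.ofFinite U
  rw [gauss_eq]
  exact sum_mem fun u _ => root_mem_Rz hN hpN (ep_pow _)

theorem gauss_mul_conj (q : S → ZMod p) (b : S →ₗ[ZMod p] S →ₗ[ZMod p] ZMod p)
    (hq : ∀ u w, q (u + w) = q u + q w + b u w) (U : Submodule (ZMod p) S)
    (hnd : ∀ u ∈ U, (∀ w ∈ U, b u w = 0) → u = 0) :
    gauss q U * conj (gauss q U) = (Nat.card U : ℂ) := by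
  classical
  haveI := Fintype.ofFinite U
  have hsym : ∀ u w, b u w = b w u := fun u w => by
    have h := hq u w
    rw [add_comm u w, hq w u] at h
    linear_combination -h
  have h0 : q 0 = 0 := by
    have h := hq 0 0
    rw [add_zero, map_zero, add_zero] at h
    linear_combination -h
  have hin : ∀ w : U, ∑ v : U, ep p (b v w) = if w = 0 then (Nat.card U : ℂ) else 0 := by
    intro w
    split_ifs with hw
    · simp [hw, Nat.card_eq_fintype_card]
    · let φ : AddChar U ℂ := (ep p).compAddMonoidHom ((b.flip (w : S)).comp U.subtype).toAddMonoidHom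
      show ∑ v : U, φ v = 0
      rw [AddChar.sum_eq_zero_iff_ne_zero]
      intro h
      refine hw (Subtype.ext (hnd w w.2 fun v hv => ?_))
      by_contra hne
      have h1 := DFunLike.congr_fun h ⟨v, hv⟩
      refine ep_ne_one_at (a := b v w) (fun e => hne (by rw [hsym]; exact e)) ?_
      simpa [φ] using h1
  rw [gauss_eq, map_sum, Finset.mul_sum]
  calc ∑ v : U, (∑ u : U, ep p (q u)) * conj (ep p (q v))
      = ∑ v : U, ∑ w : U, ep p (q w) * ep p (b v w) := Finset.sum_congr rfl fun v _ => by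
        rw [conj_ep, Finset.sum_mul, ← Equiv.sum_comp (Equiv.addLeft v)]
        refine Finset.sum_congr rfl fun w _ => ?_
        rw [← AddChar.map_add_eq_mul, ← AddChar.map_add_eq_mul, Equiv.coe_addLeft, Submodule.coe_add, hq]
        congr 1; ring
    _ = ∑ w : U, ep p (q w) * ∑ v : U, ep p (b v w) := by rw [Finset.sum_comm]; simp [Finset.mul_sum]
    _ = _ := by
      rw [Finset.sum_congr rfl fun w _ => by rw [hin w], Finset.sum_eq_single (0 : U)]
      · rw [if_pos rfl, Submodule.coe_zero, h0, AddChar.map_zero_eq_one, one_mul]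
      · exact fun w _ hw => by rw [if_neg hw, mul_zero]
      · exact fun h => absurd (Finset.mem_univ _) h

variable {M : Ideal AlgInt} {N : ℕ}

/-- An invariant quadratic form with nondegenerate polar gives a weight. -/
theorem hasTheta_quadratic (hM : IsPModular p M) (hN : N ≠ 0) (hpN : p ∣ N) (hpC : ¬ p ∣ Nat.card C)
    (ρ : Representation (ZMod p) C S) (q : S → ZMod p) (b : S →ₗ[ZMod p] S →ₗ[ZMod p] ZMod p)
    (hq : ∀ u w, q (u + w) = q u + q w + b u w) (hqi : ∀ x u, q (ρ x u) = q u)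
    (hnd : ∀ u, (∀ w, b u w = 0) → u = 0) : HasTheta p M N (Nat.card S) (fixCard ρ) := by
  classical
  haveI := Fintype.ofFinite S
  have hb : InvForm ρ b := fun x u w => by
    have h1 := hq (ρ x u) (ρ x w)
    rw [← map_add, hqi, hqi, hqi, hq] at h1
    linear_combination -h1
  set W : C → ℂ := fun x => gauss q (fixSub ρ x) with hWdef
  letI act : MulAction C S :=
    { smul := fun g u => ρ g u
      one_smul := fun u => by show ρ 1 u = u; simp
      mul_smul := fun a c u => by show ρ (a * c) u = ρ a (ρ c u); simp }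
  have hgen : ∀ σ : ZMod p → ZMod p, (fun x => ∑ u ∈ Finset.univ.filter (fun u : S => ρ x u = u), ep p (σ (q u)))
      ∈ Gen C N := by
    intro σ
    have e : (fun x => ∑ u ∈ Finset.univ.filter (fun u : S => ρ x u = u), ep p (σ (q u))) =
        ∑ k : ZMod p, (fun _ : C => ep p (σ k)) *
          fun x => ((Finset.univ.filter fun u : {u : S // q u = k} => ρ x (u : S) = u).card : ℂ) := by
      funext x
      rw [Finset.sum_apply, ← Finset.sum_fiberwise _ q]
      refine Finset.sum_congr rfl fun k _ => ?_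
      rw [Pi.mul_apply, Finset.sum_congr rfl (g := fun _ => ep p (σ k))
        (fun u hu => by rw [(Finset.mem_filter.1 hu).2]), Finset.sum_const, nsmul_eq_mul, mul_comm]
      congr 2
      refine Finset.card_bij' (fun u hu => ⟨u, (Finset.mem_filter.1 hu).2⟩) (fun u _ => (u : S)) ?_ ?_ ?_ ?_
      · exact fun u hu => Finset.mem_filter.2 ⟨Finset.mem_univ _, (Finset.mem_filter.1 (Finset.mem_filter.1 hu).1).2⟩
      · exact fun u hu => Finset.mem_filter.2
          ⟨Finset.mem_filter.2 ⟨Finset.mem_univ _, (Finset.mem_filter.1 hu).2⟩, u.2⟩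
      · exact fun _ _ => rfl
      · exact fun _ _ => rfl
    rw [e]
    refine sum_mem fun k _ => mul_mem (const_mem_Gen (root_mem_Rz hN hpN (ep_pow _))) (char_mem_Gen ?_)
    letI : MulAction C {u : S // q u = k} :=
      { smul := fun g u => ⟨ρ g u, (hqi g u).trans u.2⟩
        one_smul := fun u => Subtype.ext (by show ρ 1 (u : S) = u; simp)
        mul_smul := fun a c u => Subtype.ext (by show ρ (a * c) (u : S) = ρ a (ρ c u); simp) }
    convert isCharacter_permCount (G := C) (ι := {u : S // q u = k}) using 5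
    rw [Subtype.ext_iff]
    rfl
  have hWsum : ∀ x, W x = ∑ u ∈ Finset.univ.filter (fun u : S => ρ x u = u), ep p (q u) := fun x => by
    rw [hWdef]; simp only
    rw [gauss_eq]
    exact (Finset.sum_subtype (p := fun u => u ∈ fixSub ρ x) _ (by simp [mem_fixSub]) fun u => ep p (q u)).symm
  refine hasTheta_of_weil hp.out hN W ?_ ?_ ?_ (gauss_mem_Rz hN hpN q _) (fixCard_one ρ)
    (Module.finrank (ZMod p) S) (fun x => ⟨_, Submodule.finrank_le _, card_eq_pow _⟩) ?_ (fixCard_dvd ρ) ?_
  · intro x y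
    rw [hWsum, hWsum]
    refine Finset.sum_bij' (fun u _ => ρ y⁻¹ u) (fun u _ => ρ y u) ?_ ?_ ?_ ?_ ?_
    · intro u hu
      have h : ρ (y * x * y⁻¹) u = u := (Finset.mem_filter.1 hu).2
      refine Finset.mem_filter.2 ⟨Finset.mem_univ _, ?_⟩
      conv_rhs => rw [← h]
      simp [← Module.End.mul_apply, ← map_mul, mul_assoc]
    · intro u hu
      refine Finset.mem_filter.2 ⟨Finset.mem_univ _, ?_⟩
      conv_rhs => rw [← (Finset.mem_filter.1 hu).2]
      simp [← Module.End.mul_apply, ← map_mul, mul_assoc]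
    · intro u _; simp [← Module.End.mul_apply, ← map_mul]
    · intro u _; simp [← Module.End.mul_apply, ← map_mul]
    · intro u _; rw [hqi]
  · have := hgen id
    convert this using 1
    funext x; exact hWsum x
  · have := hgen Neg.neg
    convert this using 1
    funext x
    rw [hWsum, map_sum]
    exact Finset.sum_congr rfl fun u _ => conj_ep _
  · exact fun x => gauss_mul_conj q b hq _ fun u hu h => (((fix_decomp ρ x hpC).2 b hb).2 hnd).1 u hu h
  intro x
  obtain ⟨hc, hform⟩ := fix_decomp ρ x hpC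
  obtain ⟨horth, hnd'⟩ := hform b hb
  set D := LinearMap.range (LinearMap.id - ρ x) with hD
  refine ⟨gauss q D, gauss_mem_Rz hN hpN q D, ?_, fun hne => ?_⟩
  · haveI := Fintype.ofFinite D
    haveI := Fintype.ofFinite (fixSub ρ x)
    haveI := Fintype.ofFinite (fixSub ρ 1)
    show gauss q (fixSub ρ x) * _ = gauss q (fixSub ρ 1)
    rw [gauss_eq, gauss_eq, gauss_eq, Finset.sum_mul_sum, ← Fintype.sum_prod_type']
    refine Fintype.sum_equiv ((Submodule.prodEquivOfIsCompl _ _ hc).toEquiv.trans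
      (Equiv.subtypeUnivEquiv (p := fun u : S => u ∈ fixSub ρ 1) (fun u => by simp [mem_fixSub])).symm) _ _ fun cd => ?_
    show ep p _ * ep p _ = ep p (q ((cd.1 : S) + (cd.2 : S)))
    rw [hq, horth _ cd.1.2 _ cd.2.2, add_zero, AddChar.map_add_eq_mul]
  · haveI := Fintype.ofFinite D
    have h1 : MemLocalIdeal M (gauss q D - (Nat.card D : ℂ)) := by
      rw [gauss_eq, Nat.card_eq_fintype_card, ← Finset.card_univ,
        show ((Finset.univ : Finset D).card : ℂ) = ∑ _u : D, (1 : ℂ) by simp, ← Finset.sum_sub_distrib]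
      exact memLocalIdeal_sum hM _ fun u _ => root_sub_one_mem hM (k := 1) (by rw [pow_one]; exact ep_pow _)
    have h2 : MemLocalIdeal M (Nat.card D : ℂ) := by
      rw [memLocalIdeal_natCast_iff hM, card_eq_pow]
      refine dvd_pow_self p fun h0 => hne ((fixCard_eq_iff ρ x).2 fun u => ?_)
      rw [Submodule.finrank_eq_zero] at h0
      have : (LinearMap.id - ρ x : S →ₗ[ZMod p] S) u ∈ D := ⟨u, rfl⟩
      rw [h0, Submodule.mem_bot, LinearMap.sub_apply, LinearMap.id_apply, sub_eq_zero] at this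
      exact this.symm
    have := memLocalIdeal_add hM h1 h2
    rwa [sub_add_cancel] at this

end Gauss

end CfsgLib.RealVector
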