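import Cfsg.Agent.CharBasics.ModP
import Cfsg.Agent.CharBasics.Extra
import Cfsg.Agent.Blocks.Local

/-!
Functions on a group of order prime to `p` which average integrally against characters,
and the weight `θ` attached to a Weil-type function.
-/

set_option autoImplicit false

namespace CfsgLib.RealVector

open Polynomial Cfsg CfsgLib.CharBasics CfsgLib.Blocks
open scoped ComplexConjugate

universe u

/-- The integer polynomials in `zetaRoot N`. -/
noncomputable def Rz (N : ℕ) : Subring ℂ := (Polynomial.aeval (zetaRoot N) : ℤ[X] →ₐ[ℤ] ℂ).toRingHom.range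

theorem mem_Rz {N : ℕ} {z : ℂ} : z ∈ Rz N ↔ ∃ P : ℤ[X], aeval (zetaRoot N) P = z := Iff.rfl

theorem root_mem_Rz {N : ℕ} (hN : N ≠ 0) {z : ℂ} {m : ℕ} (hm : m ∣ N) (hz : z ^ m = 1) : z ∈ Rz N := by
  haveI : NeZero N := ⟨hN⟩
  obtain ⟨d, hd⟩ := hm
  obtain ⟨e, -, he⟩ := (zetaRoot_prim hN).eq_pow_of_pow_eq_one
    (show z ^ N = 1 by rw [hd, pow_mul, hz, one_pow])
  exact ⟨X ^ e, by simp [← he]⟩

theorem conj_aeval {N : ℕ} (hN : N ≠ 0) (j : ℕ) (P : ℤ[X]) :
    conj (aeval (zetaRoot N ^ j) P) = aeval (zetaRoot N ^ j) (P.comp (X ^ (N - 1))) := by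
  rw [aeval_comp, map_pow, aeval_X]
  have h1 : conj (aeval (zetaRoot N ^ j) P) = aeval (conj (zetaRoot N ^ j)) P :=
    (Polynomial.aeval_algHom_apply (starRingEnd ℂ).toIntAlgHom (zetaRoot N ^ j) P).symm
  rw [h1]
  congr 2
  have hn : ‖zetaRoot N ^ j‖ = 1 := by
    rw [norm_pow, Complex.norm_eq_one_of_pow_eq_one (zetaRoot_prim hN).pow_eq_one hN, one_pow]
  rw [← Complex.inv_eq_conj hn]
  refine inv_eq_of_mul_eq_one_right ?_
  rw [← pow_succ', Nat.sub_add_cancel (Nat.one_le_iff_ne_zero.2 hN), ← pow_mul, mul_comm, pow_mul,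
    (zetaRoot_prim hN).pow_eq_one, one_pow]

theorem conj_mem_Rz {N : ℕ} (hN : N ≠ 0) {z : ℂ} (h : z ∈ Rz N) : conj z ∈ Rz N := by
  obtain ⟨P, rfl⟩ := mem_Rz.1 h
  exact ⟨P.comp (X ^ (N - 1)), by
    have := conj_aeval hN 1 P
    rw [pow_one] at this
    exact this.symm⟩

/-- An identity between values of integer polynomials passes to the conjugates. -/
theorem aeval_transfer {N : ℕ} (hN : N ≠ 0) {j : ℕ} (hj : j.Coprime N) {P Q : ℤ[X]}
    (h : aeval (zetaRoot N) P = aeval (zetaRoot N) Q) :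
    aeval (zetaRoot N ^ j) P = aeval (zetaRoot N ^ j) Q := by
  have hz := zetaRoot_prim hN
  have hdvd : cyclotomic N ℤ ∣ P - Q := by
    rw [cyclotomic_eq_minpoly hz (Nat.pos_of_ne_zero hN)]
    exact minpoly.isIntegrallyClosed_dvd (hz.isIntegral (Nat.pos_of_ne_zero hN)) (by rw [map_sub, h, sub_self])
  obtain ⟨R, hR⟩ := hdvd
  rw [← sub_eq_zero, ← map_sub, hR, map_mul,
    cyclotomic_eq_minpoly (hz.pow_of_coprime j hj) (Nat.pos_of_ne_zero hN), minpoly.aeval, zero_mul]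

theorem aeval_mem_subring {S : Subring ℂ} {a : ℂ} (ha : a ∈ S) (P : ℤ[X]) : aeval a P ∈ S := by
  induction P using Polynomial.induction_on' with
  | add f g hf hg => rw [map_add]; exact add_mem hf hg
  | monomial n c => rw [aeval_monomial]; exact mul_mem (intCast_mem S c) (pow_mem ha n)

variable {p : ℕ} {M : Ideal AlgInt} {N : ℕ}

theorem memLocalRing_of_mem_Rz (hM : IsPModular p M) (hN : N ≠ 0) {z : ℂ} (h : z ∈ Rz N) :
    MemLocalRing M z := by
  obtain ⟨P, rfl⟩ := mem_Rz.1 h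
  refine aeval_mem_subring (S := localRing hM) ?_ P
  exact memLocalRing_of_isIntegral hM ((zetaRoot_prim hN).isIntegral (Nat.pos_of_ne_zero hN))

/-- Bézout in `Rz`. -/
theorem mem_of_coprime_mul {S : Subring ℂ} {a b : ℕ} (hab : a.Coprime b) {z : ℂ}
    (ha : (a : ℂ) * z ∈ S) (hb : (b : ℂ) * z ∈ S) : z ∈ S := by
  obtain ⟨x, y, hxy⟩ := Int.isCoprime_iff_gcd_eq_one.2 (show Int.gcd (a : ℤ) (b : ℤ) = 1 from hab)
  have e : z = (x : ℂ) * ((a : ℂ) * z) + (y : ℂ) * ((b : ℂ) * z) := by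
    have h := congrArg (fun n : ℤ => (n : ℂ)) hxy
    push_cast at h
    linear_combination (-z) * h
  rw [e]
  exact add_mem (mul_mem (intCast_mem S x) ha) (mul_mem (intCast_mem S y) hb)

section Gen

variable {C : Type u} [Group C] [Fintype C]

/-- `F` averages into `Rz N` against every character. -/
def Test (N : ℕ) (F : C → ℂ) : Prop :=
  ∀ ψ : C → ℂ, IsCharacter C ψ → (Nat.card C : ℂ)⁻¹ * ∑ x : C, ψ x * F x ∈ Rz N

/-- The multipliers of testable functions. -/
noncomputable def Gen (C : Type u) [Group C] [Fintype C] (N : ℕ) : Subring (C → ℂ) where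
  carrier := {f | ∀ F, Test N F → Test N (f * F)}
  mul_mem' := fun {a b} ha hb F hF => by rw [mul_assoc]; exact ha _ (hb F hF)
  one_mem' := fun F hF => by rwa [one_mul]
  add_mem' := fun {a b} ha hb F hF ψ hψ => by
    have := add_mem (ha F hF ψ hψ) (hb F hF ψ hψ)
    rw [← mul_add, ← Finset.sum_add_distrib] at this
    simpa [add_mul, mul_add] using this
  zero_mem' := fun F hF ψ hψ => by simp [zero_mem]
  neg_mem' := fun {a} ha F hF ψ hψ => by
    simpa [mul_neg, Finset.sum_neg_distrib] using neg_mem (ha F hF ψ hψ)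

theorem mem_Gen {f : C → ℂ} : f ∈ Gen C N ↔ ∀ F, Test N F → Test N (f * F) := Iff.rfl

theorem char_mem_Gen {ψ : C → ℂ} (h : IsCharacter C ψ) : ψ ∈ Gen C N := fun F hF φ hφ => by
  have := hF (φ * ψ) (isCharacter_mul hφ h)
  simpa [mul_assoc] using this

theorem const_mem_Gen {c : ℂ} (hc : c ∈ Rz N) : (fun _ : C => c) ∈ Gen C N := fun F hF φ hφ => by
  have h := mul_mem hc (hF φ hφ)
  rw [mul_left_comm, Finset.mul_sum] at h
  simpa [mul_left_comm] using h

theorem avg_mem {f F : C → ℂ} (hf : f ∈ Gen C N) (hF : Test N F) :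
    (Nat.card C : ℂ)⁻¹ * ∑ x : C, f x * F x ∈ Rz N := by
  have h := hf F hF (fun _ => 1) (isCharacter_of_irr isIrrCharacter_one)
  simpa using h

/-- The character of a permutation action. -/
theorem isCharacter_permCount {G : Type*} [Group G] {ι : Type*} [Fintype ι] [DecidableEq ι] [MulAction G ι] :
    IsCharacter G (fun g => ((Finset.univ.filter fun i : ι => g • i = i).card : ℂ)) := by
  let ρ : Representation ℂ G (ι → ℂ) :=
    { toFun := fun g => LinearMap.funLeft ℂ ℂ (fun i : ι => g⁻¹ • i)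
      map_one' := by ext f i; simp [LinearMap.funLeft_apply]
      map_mul' := fun a b => by ext f i; simp [LinearMap.funLeft_apply, mul_smul] }
  have : ρ.character = fun g => ((Finset.univ.filter fun i : ι => g • i = i).card : ℂ) := by
    funext g
    rw [Representation.character, LinearMap.trace_eq_matrix_trace ℂ (Pi.basisFun ℂ ι), Matrix.trace,
      Finset.card_filter, Nat.cast_sum]
    refine Finset.sum_congr rfl fun i _ => ?_
    rw [Matrix.diag_apply, LinearMap.toMatrix_apply]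
    simp only [ρ, MonoidHom.coe_mk, OneHom.coe_mk, LinearMap.funLeft_apply, Pi.basisFun_apply,
      Pi.basisFun_repr, Pi.single_apply, inv_smul_eq_iff]
    by_cases h : g • i = i
    · rw [if_pos h, if_pos h.symm]; simp
    · rw [if_neg h, if_neg (Ne.symm h)]; simp
  exact this ▸ isCharacter_rep ρ

/-- A weight for the size `s` and the fixed-point counts `f`. -/
def HasTheta (p : ℕ) (M : Ideal AlgInt) (N : ℕ) (s : ℕ) (f : C → ℕ) : Prop :=
  ∃ θ : C → ℂ, (∀ x, θ x ∈ Rz N) ∧ IsClassFunction C θ ∧ θ 1 = 1 ∧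
    (∀ x, ∃ n : ℕ, θ x * conj (θ x) = (n : ℂ) ∧ n * f x ≤ s) ∧
    (∀ x, f x ≠ s → MemLocalIdeal M (θ x)) ∧ ∃ k : ℕ, (fun x => (p : ℂ) ^ k * θ x) ∈ Gen C N

theorem hasTheta_trivial {s : ℕ} {f : C → ℕ} (h : ∀ x, f x = s) : HasTheta p M N s f :=
  ⟨fun _ => 1, fun _ => one_mem _, fun _ _ => rfl, rfl, fun x => ⟨1, by simp, by simp [h]⟩,
    fun x hx => absurd (h x) hx, 0, by simp only [pow_zero, mul_one]; exact one_mem (Gen C N)⟩

theorem HasTheta.prod (hM : IsPModular p M) (hN : N ≠ 0) {s t : ℕ} {f g : C → ℕ}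
    (hf : HasTheta p M N s f) (hg : HasTheta p M N t g) : HasTheta p M N (s * t) fun x => f x * g x := by
  obtain ⟨a, a1, a2, a3, a4, a5, i, a6⟩ := hf
  obtain ⟨b, b1, b2, b3, b4, b5, j, b6⟩ := hg
  refine ⟨a * b, fun x => mul_mem (a1 x) (b1 x), fun x y => ?_, ?_, fun x => ?_, fun x hx => ?_, i + j, ?_⟩
  · show a _ * b _ = a _ * b _
    rw [a2, b2]
  · show a 1 * b 1 = 1
    rw [a3, b3, one_mul]
  · obtain ⟨n, hn, hn'⟩ := a4 x
    obtain ⟨m, hm, hm'⟩ := b4 x
    refine ⟨n * m, ?_, ?_⟩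
    · rw [Pi.mul_apply, map_mul, Nat.cast_mul, ← hn, ← hm]; ring
    · calc n * m * (f x * g x) = n * f x * (m * g x) := by ring
        _ ≤ s * t := Nat.mul_le_mul hn' hm'
  · by_cases h : f x = s
    · refine memLocalIdeal_mul_left hM (memLocalRing_of_mem_Rz hM hN (a1 x)) (b5 x fun h' => hx ?_)
      simp [h, h']
    · exact memLocalIdeal_mul_right hM (a5 x h) (memLocalRing_of_mem_Rz hM hN (b1 x))
  · have := mul_mem a6 b6
    convert this using 1
    funext x
    simp only [Pi.mul_apply, pow_add]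
    ring

theorem HasTheta.mono {s s' : ℕ} {f f' : C → ℕ} (h : HasTheta p M N s f) (hs : 0 < s)
    (hle : ∀ x, s * f' x ≤ s' * f x) (hmv : ∀ x, f' x ≠ s' → f x ≠ s) : HasTheta p M N s' f' := by
  obtain ⟨θ, h1, h2, h3, h4, h5, h6⟩ := h
  refine ⟨θ, h1, h2, h3, fun x => ?_, fun x hx => h5 x (hmv x hx), h6⟩
  obtain ⟨n, hn, hn'⟩ := h4 x
  refine ⟨n, hn, Nat.le_of_mul_le_mul_left ?_ hs⟩
  calc s * (n * f' x) = n * (s * f' x) := by ring
    _ ≤ n * (s' * f x) := Nat.mul_le_mul_left n (hle x)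
    _ = s' * (n * f x) := by ring
    _ ≤ s' * s := Nat.mul_le_mul_left s' hn'
    _ = s * s' := mul_comm _ _

/-- A function with square modulus `f` gives a weight. -/
theorem hasTheta_of_weil (hp : p.Prime) (hN : N ≠ 0) {s : ℕ} {f : C → ℕ} (W : C → ℂ)
    (hcl : IsClassFunction C W) (hW : W ∈ Gen C N) (hW' : (fun x => conj (W x)) ∈ Gen C N)
    (hW1 : W 1 ∈ Rz N) (hf1 : f 1 = s) (d : ℕ) (hfp : ∀ x, ∃ i ≤ d, f x = p ^ i)
    (hnorm : ∀ x, W x * conj (W x) = (f x : ℂ)) (hdvd : ∀ x, f x ∣ s)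
    (hr : ∀ x, ∃ r ∈ Rz N, W x * r = W 1 ∧ (f x ≠ s → MemLocalIdeal M r)) :
    HasTheta p M N s f := by
  have hf0 : ∀ x, f x ≠ 0 := fun x => by
    obtain ⟨i, -, hi⟩ := hfp x
    rw [hi]; exact pow_ne_zero i hp.ne_zero
  have hW0 : ∀ x, W x ≠ 0 := fun x h => hf0 x (by simpa [h] using (hnorm x).symm)
  choose r hrR hre hrM using hr
  have hθ : ∀ x, r x = W 1 / W x := fun x => by rw [← hre x, mul_div_cancel_left₀ _ (hW0 x)]
  refine ⟨r, hrR, fun x y => ?_, ?_, fun x => ?_, hrM, ?_⟩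
  · rw [hθ, hθ, hcl]
  · rw [hθ, div_self (hW0 1)]
  · refine ⟨s / f x, ?_, (Nat.div_mul_cancel (hdvd x)).le⟩
    rw [hθ, map_div₀, div_mul_div_comm, hnorm, hnorm, hf1,
      Nat.cast_div (hdvd x) (Nat.cast_ne_zero.2 (hf0 x))]
  · -- invert `f` up to a power of `p`
    set π : C → ℂ := W * fun x => conj (W x) with hπ
    have hπG : π ∈ Gen C N := mul_mem hW hW'
    have hinv : ∀ k : ℕ, ∃ g ∈ Gen C N, ∃ e : ℕ, ∀ x, (∃ i ≤ k, f x = p ^ i) → g x * π x = (p : ℂ) ^ e := by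
      intro k
      induction k with
      | zero =>
        refine ⟨1, one_mem _, 0, fun x hx => ?_⟩
        obtain ⟨i, hi, he⟩ := hx
        rw [Nat.le_zero.1 hi] at he
        simp [hπ, hnorm, he]
      | succ k ih =>
        obtain ⟨g, hg, e, hge⟩ := ih
        refine ⟨(fun _ => (p : ℂ) ^ e) + ((fun _ => (p : ℂ) ^ (k + 1)) - π) * g, ?_, e + (k + 1), fun x hx => ?_⟩
        · exact add_mem (const_mem_Gen (pow_mem (natCast_mem _ p) e))
            (mul_mem (sub_mem (const_mem_Gen (pow_mem (natCast_mem _ p) (k + 1))) hπG) hg)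
        obtain ⟨i, hi, he⟩ := hx
        simp only [Pi.add_apply, Pi.mul_apply, Pi.sub_apply]
        rcases Nat.lt_succ_iff_lt_or_eq.1 (Nat.lt_succ_of_le hi) with hlt | heq
        · have := hge x ⟨i, Nat.le_of_lt_succ hlt, he⟩
          rw [pow_add]
          linear_combination ((p : ℂ) ^ (k + 1) - π x) * this
        · have hx' : π x = (p : ℂ) ^ (k + 1) := by simp [hπ, hnorm, he, heq]
          rw [hx', pow_add]; ring
    obtain ⟨g, hg, e, hge⟩ := hinv d
    refine ⟨e, ?_⟩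
    have hmem := mul_mem (mul_mem (const_mem_Gen (C := C) hW1) hW') hg
    convert hmem using 1
    funext x
    have hπx : g x * (W x * conj (W x)) = (p : ℂ) ^ e := hge x (hfp x)
    have := hre x
    simp only [Pi.mul_apply]
    rw [← this, ← hπx]
    ring

end Gen

end CfsgLib.RealVector
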