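import Cfsg.Agent.RealVector.Gauss
import Cfsg.Agent.Clifford.CoprimeDegree
import Mathlib.GroupTheory.SemidirectProduct

/-!
The weight of a symplectic module of odd characteristic, from the character of the Heisenberg group
extended over the coprime operator group.
-/

set_option autoImplicit false

namespace CfsgLib.RealVector

open Cfsg CfsgLib.CharBasics CfsgLib.Blocks CfsgLib.Clifford
open scoped ComplexConjugate

universe u v

section General

variable {G : Type*} [Group G] [Finite G] {η : G → ℂ}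

theorem eq_zero_of_central_translate (hη : IsIrrCharacter G η) {z g : G} (hz : z ∈ Subgroup.center G)
    (hne : η z ≠ η 1) (h : η (z * g) = η g) : η g = 0 := by
  have h1 := center_mul hη hz g
  rw [h] at h1
  by_contra h0
  exact hne (mul_right_cancel₀ h0 h1).symm

theorem norm_central (hη : IsIrrCharacter G η) {z : G} (hz : z ∈ Subgroup.center G) :
    η z * conj (η z) = (charDegree η : ℂ) * charDegree η := by
  have h1 := center_mul hη hz z⁻¹
  rw [mul_inv_cancel, apply_inv (isCharacter_of_irr hη), apply_one (isCharacter_of_irr hη)] at h1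
  exact h1.symm

theorem central_pow (hη : IsIrrCharacter G η) {z : G} (hz : z ∈ Subgroup.center G) (k : ℕ) :
    η (z ^ k) = η 1 * (η z / η 1) ^ k := by
  induction k with
  | zero => simp
  | succ k ih =>
    have h1 := center_mul hη hz (z ^ k)
    rw [← pow_succ', ih] at h1
    have h0 := apply_one_ne_zero hη
    refine mul_left_cancel₀ h0 ?_
    rw [h1, pow_succ]
    field_simp

end General

variable {p : ℕ} [hp : Fact p.Prime] {S : Type v} [AddCommGroup S] [Module (ZMod p) S] [Finite S]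

/-- The Heisenberg group of a bilinear form, in odd characteristic. -/
@[ext]
structure Heis (a : S →ₗ[ZMod p] S →ₗ[ZMod p] ZMod p) : Type v where
  vec : S
  scal : ZMod p

namespace Heis

variable {a : S →ₗ[ZMod p] S →ₗ[ZMod p] ZMod p}

instance : Mul (Heis a) := ⟨fun g h => ⟨g.vec + h.vec, g.scal + h.scal + (2 : ZMod p)⁻¹ * a g.vec h.vec⟩⟩
instance : One (Heis a) := ⟨⟨0, 0⟩⟩
instance : Inv (Heis a) := ⟨fun g => ⟨-g.vec, -g.scal + (2 : ZMod p)⁻¹ * a g.vec g.vec⟩⟩

@[simp] theorem mul_vec (g h : Heis a) : (g * h).vec = g.vec + h.vec := rfl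
@[simp] theorem mul_scal (g h : Heis a) :
    (g * h).scal = g.scal + h.scal + (2 : ZMod p)⁻¹ * a g.vec h.vec := rfl
@[simp] theorem one_vec : (1 : Heis a).vec = 0 := rfl
@[simp] theorem one_scal : (1 : Heis a).scal = 0 := rfl
@[simp] theorem inv_vec (g : Heis a) : g⁻¹.vec = -g.vec := rfl
@[simp] theorem inv_scal (g : Heis a) : g⁻¹.scal = -g.scal + (2 : ZMod p)⁻¹ * a g.vec g.vec := rfl

instance : Group (Heis a) where
  mul_assoc g h k := by
    ext
    · simp [add_assoc]
    · simp only [mul_scal, mul_vec, map_add, LinearMap.add_apply]; ring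
  one_mul g := by ext <;> simp
  mul_one g := by ext <;> simp
  inv_mul_cancel g := by ext <;> simp

/-- As a set. -/
def equivProd : Heis a ≃ S × ZMod p where
  toFun g := (g.vec, g.scal)
  invFun x := ⟨x.1, x.2⟩

instance : Finite (Heis a) := Finite.of_equiv _ equivProd.symm

theorem card_eq : Nat.card (Heis a) = Nat.card S * p := by
  rw [Nat.card_congr equivProd, Nat.card_prod, Nat.card_zmod]

/-- The central element. -/
def zed : Heis a := ⟨0, 1⟩

theorem mem_center_of_vec {g : Heis a} (hg : g.vec = 0) : g ∈ Subgroup.center (Heis a) := by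
  rw [Subgroup.mem_center_iff]
  intro h
  ext
  · simp [hg]
  · simp [hg, add_comm]

theorem conj_formula (halt : ∀ u, a u u = 0) (hp2 : p ≠ 2) (w u : S) (s : ZMod p) :
    (⟨w, 0⟩ : Heis a) * ⟨u, s⟩ * (⟨w, 0⟩ : Heis a)⁻¹ = ⟨u, s + a w u⟩ := by
  have hskew : a u w = - a w u := by
    have := halt (u + w)
    simp only [map_add, LinearMap.add_apply, halt] at this
    linear_combination this
  have h2 : (2 : ZMod p) ≠ 0 := by
    intro h
    have h' : ((2 : ℕ) : ZMod p) = 0 := by exact_mod_cast h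
    rw [ZMod.natCast_eq_zero_iff] at h'
    exact hp2 ((Nat.prime_dvd_prime_iff_eq hp.out Nat.prime_two).1 h')
  ext
  · simp
  · simp only [mul_scal, inv_vec, inv_scal, mul_vec, map_add, map_neg, LinearMap.add_apply, halt, hskew]
    field_simp
    ring

/-- An automorphism of the form acts. -/
noncomputable def mapAut {C : Type u} [Group C] (ρ : Representation (ZMod p) C S) (ha : InvForm ρ a) :
    C →* MulAut (Heis a) where
  toFun x :=
    { toFun := fun g => ⟨ρ x g.vec, g.scal⟩
      invFun := fun g => ⟨ρ x⁻¹ g.vec, g.scal⟩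
      left_inv := fun g => by ext <;> simp [← Module.End.mul_apply, ← map_mul]
      right_inv := fun g => by ext <;> simp [← Module.End.mul_apply, ← map_mul]
      map_mul' := fun g h => by
        ext
        · simp
        · simp [ha x g.vec h.vec] }
  map_one' := by apply MulEquiv.ext; intro g; ext <;> simp
  map_mul' x y := by apply MulEquiv.ext; intro g; ext <;> simp

end Heis

open Heis

variable {C : Type u} [Group C] [Fintype C] {M : Ideal AlgInt} {N : ℕ}

theorem exists_pairing_one {a : S →ₗ[ZMod p] S →ₗ[ZMod p] ZMod p} (U : Submodule (ZMod p) S) {u : S}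
    (h : ¬ ∀ w ∈ U, a u w = 0) (halt : ∀ u, a u u = 0) : ∃ w ∈ U, a w u = 1 := by
  push Not at h
  obtain ⟨w, hw, hne⟩ := h
  have hskew : a w u = - a u w := by
    have := halt (u + w)
    simp only [map_add, LinearMap.add_apply, halt] at this
    linear_combination this
  exact ⟨(a w u)⁻¹ • w, U.smul_mem _ hw, by
    rw [map_smul, LinearMap.smul_apply, smul_eq_mul, inv_mul_cancel₀ (by rw [hskew]; simpa using hne)]⟩

/-- An invariant symplectic form in odd characteristic gives a weight. -/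
theorem hasTheta_symplectic (hM : IsPModular p M) (hN : N ≠ 0) (hCN : Nat.card C ∣ N)
    (hpC : ¬ p ∣ Nat.card C) (hp2 : p ≠ 2) (ρ : Representation (ZMod p) C S)
    (a : S →ₗ[ZMod p] S →ₗ[ZMod p] ZMod p) (ha : InvForm ρ a) (halt : ∀ u, a u u = 0)
    (hnd : ∀ u, (∀ w, a u w = 0) → u = 0) : HasTheta p M N (Nat.card S) (fixCard ρ) := by
  classical
  haveI := Fintype.ofFinite S
  let φ := Heis.mapAut ρ ha
  have hφ : ∀ x (g : Heis a), φ x g = ⟨ρ x g.vec, g.scal⟩ := fun _ _ => rfl
  haveI : Fintype (Heis a) := Fintype.ofFinite _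
  haveI : Finite (Heis a ⋊[φ] C) := Finite.of_equiv _ SemidirectProduct.equivProd.symm
  haveI : Fintype (Heis a ⋊[φ] C) := Fintype.ofFinite _
  set i : Heis a →* Heis a ⋊[φ] C := SemidirectProduct.inl with hi
  set j : C →* Heis a ⋊[φ] C := SemidirectProduct.inr with hj
  have hinj : Function.Injective i := SemidirectProduct.inl_injective
  set N0 : Subgroup (Heis a ⋊[φ] C) := i.range with hN0
  haveI hN0n : N0.Normal := by rw [hN0, hi, SemidirectProduct.range_inl_eq_ker_rightHom]; infer_instance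
  haveI : Fintype N0 := Fintype.ofFinite _
  have hcardN0 : Nat.card N0 = Nat.card S * p := by
    rw [hN0, ← Nat.card_congr (MonoidHom.ofInjective hinj).toEquiv, Heis.card_eq]
  have hidx : N0.index = Nat.card C := by
    rw [hN0, hi, SemidirectProduct.range_inl_eq_ker_rightHom, Subgroup.index_ker,
      MonoidHom.range_eq_top.2 SemidirectProduct.rightHom_surjective, Subgroup.card_top]
  have hcop : N0.index.Coprime (Nat.card N0) := by
    rw [hidx, hcardN0, show Nat.card S = p ^ Module.finrank (ZMod p) S by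
      rw [Module.natCard_eq_pow_finrank (K := ZMod p), Nat.card_zmod]]
    have h := ((hp.out.coprime_iff_not_dvd.2 hpC).symm)
    exact (h.pow_right _).mul_right h
  have hcent : ∀ g : Heis a, g.vec = 0 → i g ∈ Subgroup.center (Heis a ⋊[φ] C) := by
    intro g hg
    rw [Subgroup.mem_center_iff]
    intro k
    refine SemidirectProduct.ext ?_ ?_
    · simp only [hi, SemidirectProduct.mul_left, SemidirectProduct.left_inl, SemidirectProduct.right_inl,
        map_one, MulAut.one_apply]
      rw [show φ k.right g = g by rw [hφ, hg, map_zero]; ext <;> simp [hg]]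
      exact Subgroup.mem_center_iff.1 (Heis.mem_center_of_vec hg) k.left
    · simp [hi]
  have hconj : ∀ (w u : S) (s : ZMod p), i ⟨w, 0⟩ * i ⟨u, s⟩ * (i ⟨w, 0⟩)⁻¹ = i ⟨u, s + a w u⟩ := by
    intro w u s
    rw [← map_inv, ← map_mul, ← map_mul, Heis.conj_formula halt hp2]
  -- an irreducible character of the Heisenberg group
  set z0 : N0 := ⟨i zed, zed, rfl⟩ with hz0
  have hz0c : z0 ∈ Subgroup.center N0 := Subgroup.mem_center_iff.2 fun y => Subtype.ext
    (Subgroup.mem_center_iff.1 (hcent zed rfl) (y : Heis a ⋊[φ] C))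
  haveI : Fintype (IrrCharacter N0) := Fintype.ofFinite _
  obtain ⟨θ, hθ⟩ : ∃ θ : IrrCharacter N0, (θ : N0 → ℂ) z0 ≠ (θ : N0 → ℂ) 1 := by
    by_contra hall
    push Not at hall
    have hne : z0 ≠ 1 := fun h => by
      have h1 : zed = (1 : Heis a) := hinj ((congrArg Subtype.val h).trans (map_one i).symm)
      have h2 := congrArg Heis.scal h1
      exact one_ne_zero h2
    have h := sum_mul_degree hne
    rw [Finset.sum_congr rfl (fun θ _ => by rw [hall θ, apply_one (isCharacter_of_irr θ.2)])] at h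
    have h' := sum_sq_degree (G := N0)
    have h2 : ((∑ θ : IrrCharacter N0, charDegree (θ : N0 → ℂ) ^ 2 : ℕ) : ℂ) = 0 := by
      rw [← h]; push_cast; simp [sq]
    rw [h', Nat.cast_eq_zero] at h2
    exact Nat.card_pos.ne' h2
  have hθ0 : ∀ (u : S) (s : ZMod p), u ≠ 0 → (θ : N0 → ℂ) ⟨i ⟨u, s⟩, _, rfl⟩ = 0 := by
    intro u s hu
    obtain ⟨w, -, hw⟩ := exists_pairing_one ⊤ (a := a) (u := u) (fun h => hu (hnd u fun w => h w trivial)) halt
    refine eq_zero_of_central_translate θ.2 hz0c hθ ?_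
    have h1 := isClassFunction (isCharacter_of_irr θ.2) (⟨i ⟨u, s⟩, _, rfl⟩ : N0) ⟨i ⟨w, 0⟩, _, rfl⟩
    rw [← h1]
    refine congrArg _ (Subtype.ext ?_)
    show i zed * i ⟨u, s⟩ = i ⟨w, 0⟩ * i ⟨u, s⟩ * (i ⟨w, 0⟩)⁻¹
    rw [hconj, hw, ← map_mul]
    congr 1
    ext <;> simp [zed, add_comm]
  have hinv : ∀ g, conjFun g (θ : N0 → ℂ) = (θ : N0 → ℂ) := by
    intro g
    funext n
    obtain ⟨⟨u, s⟩, hn⟩ := n.2
    have hn' : n = ⟨i ⟨u, s⟩, _, rfl⟩ := Subtype.ext hn.symm
    rw [hn', conjFun]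
    by_cases hu : u = 0
    · refine congrArg _ (Subtype.ext ?_)
      show g * i ⟨u, s⟩ * g⁻¹ = i ⟨u, s⟩
      rw [Subgroup.mem_center_iff.1 (hcent ⟨u, s⟩ hu) g, mul_inv_cancel_right]
    · rw [hθ0 u s hu]
      obtain ⟨⟨u', s'⟩, hu'⟩ := hN0n.conj_mem (i ⟨u, s⟩) ⟨_, rfl⟩ g
      rw [show (⟨g * ((⟨i ⟨u, s⟩, _, rfl⟩ : N0) : Heis a ⋊[φ] C) * g⁻¹, _⟩ : N0) =
        ⟨i ⟨u', s'⟩, _, rfl⟩ from Subtype.ext hu'.symm]
      refine hθ0 u' s' fun h0 => hu ?_
      have h2 : i ⟨u', s'⟩ = i ⟨u, s⟩ := by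
        have h1 := Subgroup.mem_center_iff.1 (hcent ⟨u', s'⟩ h0) g
        rw [hu'] at h1 ⊢
        have h3 : g * (g * i ⟨u, s⟩ * g⁻¹) * g⁻¹ = g * i ⟨u, s⟩ * g⁻¹ := by rw [h1]; group
        exact mul_left_cancel (mul_right_cancel h3)
      rw [← h0]
      exact (congrArg Heis.vec (hinj h2)).symm
  obtain ⟨η, hη⟩ := CfsgLib.CoprimeDegree.exists_extension hcop θ hinv
  set χ : Heis a ⋊[φ] C → ℂ := (η : Heis a ⋊[φ] C → ℂ) with hχ
  have hχc : IsCharacter _ χ := isCharacter_of_irr η.2
  -- the degree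
  set d := charDegree χ with hd
  have hdθ : (θ : N0 → ℂ) 1 = (d : ℂ) := by rw [← hη, Subgroup.coe_one, hd]; exact apply_one hχc
  have hzc : i zed ∈ Subgroup.center (Heis a ⋊[φ] C) := hcent _ rfl
  have hzne : χ (i zed) ≠ χ 1 := by
    have h1 := hη z0
    have h2 := hη 1
    rw [Subgroup.coe_one] at h2
    rw [h2]
    exact fun h => hθ (h1.symm.trans h)
  have hd2 : d * d = Nat.card S := by
    have h : ∑ n : N0, (θ : N0 → ℂ) n * conj ((θ : N0 → ℂ) n) = (Nat.card N0 : ℂ) := by
      simp only [Complex.mul_conj', ← Complex.ofReal_pow, ← Complex.ofReal_sum]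
      exact_mod_cast sum_normSq_irr θ
    rw [← Equiv.sum_comp (Heis.equivProd.symm.trans (MonoidHom.ofInjective hinj).toEquiv), Fintype.sum_prod_type,
      Finset.sum_eq_single (0 : S)] at h
    · rw [Finset.sum_congr rfl (g := fun _ => (d : ℂ) * d) (fun s _ => ?_), Finset.sum_const, Finset.card_univ,
        ZMod.card, nsmul_eq_mul, hcardN0] at h
      · have h3 : p * (d * d) = Nat.card S * p := by exact_mod_cast h
        rw [mul_comm (Nat.card S)] at h3
        exact Nat.eq_of_mul_eq_mul_left hp.out.pos h3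
      · have hc : ((Heis.equivProd.symm.trans (MonoidHom.ofInjective hinj).toEquiv) (0, s) : N0) ∈
            Subgroup.center N0 := Subgroup.mem_center_iff.2 fun y => Subtype.ext
              (Subgroup.mem_center_iff.1 (hcent ⟨0, s⟩ rfl) (y : Heis a ⋊[φ] C))
        rw [norm_central θ.2 hc]
        have : charDegree (θ : N0 → ℂ) = d := by
          have := apply_one (isCharacter_of_irr θ.2)
          rw [hdθ] at this
          exact_mod_cast this.symm
        rw [this]
    · intro u _ hu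
      refine Finset.sum_eq_zero fun s _ => ?_
      rw [show ((Heis.equivProd.symm.trans (MonoidHom.ofInjective hinj).toEquiv) (u, s) : N0) =
        ⟨i ⟨u, s⟩, _, rfl⟩ from Subtype.ext rfl, hθ0 u s hu, zero_mul]
    · exact fun h => absurd (Finset.mem_univ _) h
  -- the coset norms
  have hcoset : ∀ x : C, ∑ h : Heis a, χ (i h * j x) * conj (χ (i h * j x)) = (Nat.card N0 : ℂ) := by
    have hF : IsCharacter _ (fun k => χ k * conj (χ k)) := CharBasics.isCharacter_mul hχc (isCharacter_star hχc)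
    have hL := isCharacter_cosetAvg N0 hF
    set L : Heis a ⋊[φ] C → ℂ := fun k => (Nat.card N0 : ℂ)⁻¹ * ∑ m : N0, χ (k * m) * conj (χ (k * m))
    have hN00 : (Nat.card N0 : ℂ) ≠ 0 := Nat.cast_ne_zero.2 Nat.card_pos.ne'
    have hL1 : L 1 = 1 := by
      have h : ∑ n : N0, (θ : N0 → ℂ) n * conj ((θ : N0 → ℂ) n) = (Nat.card N0 : ℂ) := by
        simp only [Complex.mul_conj', ← Complex.ofReal_pow, ← Complex.ofReal_sum]
        exact_mod_cast sum_normSq_irr θ
      simp only [L, one_mul]
      rw [Finset.sum_congr rfl (fun m _ => by rw [show χ ((m : N0) : Heis a ⋊[φ] C) = (θ : N0 → ℂ) m from hη m]),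
        h, inv_mul_cancel₀ hN00]
    have hLnorm : ∀ k, L k = 1 := by
      intro k
      obtain ⟨lam, hl, hv⟩ := exists_eigen hL k
      have hdeg : charDegree L = 1 := by
        have := apply_one hL
        change L 1 = _ at this
        rw [hL1] at this
        exact_mod_cast this.symm
      have e : L k = ∑ q, lam q := by simpa using hv 1
      have hn : ‖L k‖ = 1 := by
        revert lam hl hv e
        rw [hdeg]
        intro lam hl hv e
        rw [e, Fin.sum_univ_one]
        exact Complex.norm_eq_one_of_pow_eq_one (hl 0) (orderOf_pos k).ne'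
      have hr : L k = (((Nat.card N0 : ℝ)⁻¹ * ∑ m : N0, ‖χ (k * m)‖ ^ 2 : ℝ) : ℂ) := by
        simp [L, Complex.mul_conj']
      rw [hr] at hn ⊢
      rw [Complex.norm_real, Real.norm_eq_abs, abs_of_nonneg (by positivity)] at hn
      rw [hn, Complex.ofReal_one]
    intro x
    have h1 := hLnorm (j x)
    simp only [L, inv_mul_eq_one₀ hN00] at h1
    rw [h1, ← Equiv.sum_comp (MonoidHom.ofInjective hinj).toEquiv]
    symm
    refine Fintype.sum_equiv (φ x).toEquiv _ _ fun h => ?_
    have e : j x * i h = i (φ x h) * j x := by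
      rw [SemidirectProduct.inl_aut, map_inv, inv_mul_cancel_right]
    show χ (j x * i h) * conj (χ (j x * i h)) = _
    rw [e]
    rfl
  -- the function
  set W : C → ℂ := fun x => χ (j x) with hW
  have hWc : IsCharacter C W := CharBasics.isCharacter_comp hχc j
  have hW1 : W 1 = (d : ℂ) := by rw [hW]; simp only [map_one]; exact apply_one hχc
  have hshift : ∀ (c w : S) (s : ZMod p) (x : C), ∃ s' : ZMod p,
      χ (i ⟨w + c - ρ x w, s'⟩ * j x) = χ (i ⟨c, s⟩ * j x) ∧
      ((ρ x w = w) → s' = s + a w c) := by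
    intro c w s x
    set g : Heis a := ⟨w, 0⟩ * ⟨c, s⟩ * ⟨ρ x w, 0⟩⁻¹ with hg
    refine ⟨g.scal, ?_, fun hxw => ?_⟩
    · rw [← isClassFunction hχc (i ⟨c, s⟩ * j x) (i ⟨w, 0⟩)]
      congr 1
      have e : j x * (i ⟨w, 0⟩)⁻¹ = (i ⟨ρ x w, 0⟩)⁻¹ * j x := by
        rw [← map_inv, ← map_inv, show (⟨ρ x w, 0⟩ : Heis a)⁻¹ = φ x (⟨w, 0⟩⁻¹) by rw [map_inv, hφ],
          SemidirectProduct.inl_aut, map_inv (SemidirectProduct.inr : C →* Heis a ⋊[φ] C), inv_mul_cancel_right]
      rw [show (⟨w + c - ρ x w, g.scal⟩ : Heis a) = g by ext <;> simp [hg, sub_eq_add_neg],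
        hg, map_mul, map_mul, map_inv]
      simp only [mul_assoc, e]
    · rw [hg, hxw, Heis.conj_formula halt hp2]
  have hsupp : ∀ (x : C) (g : Heis a), χ (i g * j x) * conj (χ (i g * j x)) =
      if g.vec ∈ LinearMap.range (LinearMap.id - ρ x) then W x * conj (W x) else 0 := by
    intro x g
    obtain ⟨hcompl, hform⟩ := fix_decomp ρ x hpC
    obtain ⟨c, hc, dd, ⟨w, hw⟩, hcd⟩ := Submodule.mem_sup.1 (show g.vec ∈ fixSub ρ x ⊔ LinearMap.range (LinearMap.id - ρ x) by
      rw [hcompl.sup_eq_top]; trivial)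
    rw [LinearMap.sub_apply, LinearMap.id_apply] at hw
    -- the scalar part shifts by central multiplication
    have hcen : ∀ (u : S) (s : ZMod p), (d : ℂ) * χ (i ⟨u, s⟩ * j x) = χ (i ⟨0, s⟩) * χ (i ⟨u, 0⟩ * j x) := by
      intro u s
      have h1 := center_mul η.2 (hcent ⟨0, s⟩ rfl) (i ⟨u, 0⟩ * j x)
      rw [← mul_assoc, ← map_mul, show ((⟨0, s⟩ : Heis a) * ⟨u, 0⟩) = ⟨u, s⟩ by ext <;> simp] at h1
      rw [← apply_one hχc]
      exact h1
    have hd0 : (d : ℂ) ≠ 0 := by
      rw [← apply_one hχc]; exact apply_one_ne_zero η.2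
    have hnorm : ∀ (u : S) (s : ZMod p), χ (i ⟨u, s⟩ * j x) * conj (χ (i ⟨u, s⟩ * j x)) =
        χ (i ⟨u, 0⟩ * j x) * conj (χ (i ⟨u, 0⟩ * j x)) := by
      intro u s
      have h1 := congrArg (fun z => z * conj z) (hcen u s)
      simp only [map_mul, Complex.conj_natCast] at h1
      have h2 := norm_central η.2 (hcent ⟨0, s⟩ rfl)
      rw [← hχ, ← hd] at h2
      refine mul_left_cancel₀ (mul_ne_zero hd0 hd0) ?_
      linear_combination h1 + (χ (i ⟨u, 0⟩ * j x) * conj (χ (i ⟨u, 0⟩ * j x))) * h2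
    obtain ⟨s', hs', -⟩ := hshift c w 0 x
    have hgv : g = ⟨w + c - ρ x w, g.scal⟩ := by
      ext
      · rw [← hcd, ← hw]; abel
      · rfl
    have e1 : χ (i g * j x) * conj (χ (i g * j x)) = χ (i ⟨c, 0⟩ * j x) * conj (χ (i ⟨c, 0⟩ * j x)) := by
      rw [hgv, hnorm, ← hnorm _ s', hs']
    have hmem : g.vec ∈ LinearMap.range (LinearMap.id - ρ x) ↔ c = 0 := by
      constructor
      · intro hg
        refine (Submodule.disjoint_def.1 hcompl.disjoint) c hc ?_
        have : c = g.vec - dd := by rw [← hcd]; abel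
        rw [this]
        exact sub_mem hg ⟨w, by rw [LinearMap.sub_apply, LinearMap.id_apply, hw]⟩
      · intro h0
        rw [← hcd, h0, zero_add]
        exact ⟨w, by rw [LinearMap.sub_apply, LinearMap.id_apply, hw]⟩
    rw [e1]
    by_cases hc0 : c = 0
    · rw [if_pos (hmem.2 hc0), hc0, show (⟨0, 0⟩ : Heis a) = 1 from rfl, map_one, one_mul]
    · rw [if_neg (fun h => hc0 (hmem.1 h))]
      obtain ⟨hF1, -⟩ := ((hform a ha).2 hnd)
      obtain ⟨v, hv, hv1⟩ := exists_pairing_one (fixSub ρ x) (fun h => hc0 (hF1 c hc h)) halt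
      obtain ⟨s1, hs1, hs1'⟩ := hshift c v 0 x
      rw [hs1' hv, hv1, zero_add, show v + c - ρ x v = c by rw [show ρ x v = v from hv]; abel] at hs1
      rw [eq_zero_of_central_translate (η := χ) η.2 hzc hzne (g := i ⟨c, 0⟩ * j x) (by
        rw [← mul_assoc, ← map_mul, show (zed : Heis a) * ⟨c, 0⟩ = ⟨c, 1⟩ by ext <;> simp [zed]]
        exact hs1), zero_mul]
  have hnormW : ∀ x, W x * conj (W x) = (fixCard ρ x : ℂ) := by
    intro x
    obtain ⟨hcompl, -⟩ := fix_decomp ρ x hpC
    have h := hcoset x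
    rw [Finset.sum_congr rfl (fun g _ => hsupp x g), ← Finset.sum_filter, Finset.sum_const, nsmul_eq_mul,
      hcardN0] at h
    set D := LinearMap.range (LinearMap.id - ρ x)
    have hcnt : (Finset.univ.filter fun g : Heis a => g.vec ∈ D).card = Nat.card D * p := by
      rw [← Fintype.card_subtype, ← Nat.card_eq_fintype_card,
        Nat.card_congr ((Heis.equivProd.subtypeEquiv (p := fun g : Heis a => g.vec ∈ D) (q := fun y : S × ZMod p => y.1 ∈ D)
          (fun _ => Iff.rfl)).trans (Equiv.prodSubtypeFstEquivSubtypeProd (p := fun u : S => u ∈ D))),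
        Nat.card_prod, Nat.card_zmod]
    have hS : Nat.card S = fixCard ρ x * Nat.card D := by
      rw [← Nat.card_congr (Submodule.prodEquivOfIsCompl _ _ hcompl).toEquiv, Nat.card_prod]; rfl
    rw [hcnt, hS] at h
    have hne : ((Nat.card D * p : ℕ) : ℂ) ≠ 0 := Nat.cast_ne_zero.2 (Nat.mul_ne_zero Nat.card_pos.ne' hp.out.ne_zero)
    refine mul_left_cancel₀ hne ?_
    rw [h]; push_cast; ring
  refine hasTheta_of_weil hp.out hN W (isClassFunction hWc) (char_mem_Gen hWc)
    (char_mem_Gen (isCharacter_star hWc)) (by rw [hW1]; exact natCast_mem _ d) (fixCard_one ρ)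
    (Module.finrank (ZMod p) S) (fun x => ⟨_, Submodule.finrank_le _, card_eq_pow _⟩) hnormW (fixCard_dvd ρ) ?_
  -- divisibility
  intro x
  obtain ⟨-, hform⟩ := fix_decomp ρ x hpC
  obtain ⟨hF1, -⟩ := (hform a ha).2 hnd
  set F := fixSub ρ x with hFdef
  set aF : F →ₗ[ZMod p] F →ₗ[ZMod p] ZMod p := a.compl₁₂ F.subtype F.subtype
  have haltF : ∀ u, aF u u = 0 := fun u => halt _
  have hfix : ∀ (y : Subgroup.zpowers x) (u : F), ρ (y : C) (u : S) = u := fun y u =>
    (fix_zpowers_iff ρ x u).2 u.2 _ y.2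
  let π : Heis aF × Subgroup.zpowers x →* Heis a ⋊[φ] C :=
    { toFun := fun z => ⟨⟨z.1.vec, z.1.scal⟩, z.2⟩
      map_one' := rfl
      map_mul' := fun z z' => by
        refine SemidirectProduct.ext ?_ rfl
        simp only [SemidirectProduct.mul_left, hφ, hfix]
        ext <;> simp [aF] }
  have hπj : ∀ y : Subgroup.zpowers x, π (1, y) = j y := fun y => SemidirectProduct.ext rfl rfl
  haveI : Fintype (Heis aF) := Fintype.ofFinite _
  haveI : Fintype (Subgroup.zpowers x) := Fintype.ofFinite _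
  obtain ⟨r, ψ, hψ, hs⟩ := exists_decomp (CharBasics.isCharacter_comp hχc π)
  let zP : Heis aF × Subgroup.zpowers x := (zed, 1)
  have hcenP : ∀ z : Heis aF × Subgroup.zpowers x, z.1.vec = 0 → z ∈ Subgroup.center _ := fun z hz =>
    Subgroup.mem_center_iff.2 fun y => Prod.ext (Subgroup.mem_center_iff.1 (Heis.mem_center_of_vec hz) y.1)
      (mul_comm' y.2 z.2)
  have hψz : ∀ q, ψ q zP ≠ ψ q 1 := by
    intro q hq
    -- equality case of the triangle inequality
    have hz : χ (i zed) = ∑ q, ψ q zP := by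
      have := congrFun hs zP
      rw [Finset.sum_apply] at this
      rw [← this]
      rfl
    have h1 : χ 1 = ∑ q, ψ q 1 := by
      have := congrFun hs 1
      rw [Finset.sum_apply] at this
      rw [← this]
      simp
    have hd0 : χ 1 ≠ 0 := apply_one_ne_zero η.2
    set lam := χ (i zed) / χ 1 with hlam
    have hl : ‖lam‖ = 1 := by
      have h := norm_central η.2 hzc
      rw [← hχ, Complex.mul_conj', ← apply_one hχc] at h
      have hh := congrArg norm h
      rw [norm_pow, Complex.norm_real, norm_norm, norm_mul, ← sq] at hh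
      rw [hlam, norm_div, div_eq_one_iff_eq (norm_ne_zero_iff.2 hd0)]
      exact (pow_left_inj₀ (norm_nonneg _) (norm_nonneg _) two_ne_zero).1 hh
    have hs1 : ∑ q, ((charDegree (ψ q) : ℝ) - (conj lam * ψ q zP).re) = 0 := by
      rw [Finset.sum_sub_distrib, ← Complex.re_sum, ← Finset.mul_sum, ← hz]
      have e : conj lam * χ (i zed) = χ 1 := by
        have e2 : χ (i zed) = lam * χ 1 := by rw [hlam, div_mul_cancel₀ _ hd0]
        rw [e2, ← mul_assoc, mul_comm (conj lam), Complex.mul_conj', hl]; simp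
      rw [e, h1, Finset.sum_congr rfl (fun q _ => apply_one (isCharacter_of_irr (hψ q))), Complex.re_sum]
      simp
    have hle : ∀ q, 0 ≤ (charDegree (ψ q) : ℝ) - (conj lam * ψ q zP).re := fun q => by
      have h1 := (Complex.re_le_norm (conj lam * ψ q zP))
      rw [norm_mul, Complex.norm_conj, hl, one_mul] at h1
      have := norm_le (isCharacter_of_irr (hψ q)) zP
      linarith
    have h2 := (Finset.sum_eq_zero_iff_of_nonneg fun q _ => hle q).1 hs1 q (Finset.mem_univ _)
    rw [hq, apply_one (isCharacter_of_irr (hψ q))] at h2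
    simp only [Complex.mul_re, Complex.natCast_re, Complex.natCast_im, mul_zero, sub_zero, Complex.conj_re] at h2
    have hpos : (0 : ℝ) < charDegree (ψ q) := by exact_mod_cast charDegree_pos (hψ q)
    have hre : lam.re = 1 := by nlinarith
    have him : lam.im = 0 := by
      have h3 : lam.re * lam.re + lam.im * lam.im = 1 := by
        rw [← Complex.normSq_apply, Complex.normSq_eq_norm_sq, hl, one_pow]
      nlinarith
    apply hzne
    have : lam = 1 := Complex.ext hre him
    rwa [hlam, div_eq_one_iff_eq hd0] at this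
  have hψ2 : ∀ q, charDegree (ψ q) * charDegree (ψ q) = fixCard ρ x := by
    intro q
    have h : ∑ z, ψ q z * conj (ψ q z) = (Nat.card (Heis aF × Subgroup.zpowers x) : ℂ) := by
      simp only [Complex.mul_conj', ← Complex.ofReal_pow, ← Complex.ofReal_sum]
      exact_mod_cast sum_normSq_irr ⟨ψ q, hψ q⟩
    rw [Fintype.sum_prod_type, ← Equiv.sum_comp Heis.equivProd.symm, Fintype.sum_prod_type,
      Finset.sum_eq_single (0 : F)] at h
    · rw [Finset.sum_congr rfl (fun s _ => Finset.sum_congr rfl fun y _ =>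
        norm_central (hψ q) (hcenP (Heis.equivProd.symm (0, s), y) rfl)), Finset.sum_const, Finset.sum_const,
        Finset.card_univ, Finset.card_univ, ZMod.card, nsmul_eq_mul, nsmul_eq_mul, Nat.card_prod, Heis.card_eq,
        Nat.card_eq_fintype_card (α := Subgroup.zpowers x)] at h
      have h3 : p * (Fintype.card (Subgroup.zpowers x) * (charDegree (ψ q) * charDegree (ψ q))) =
          Nat.card F * p * Fintype.card (Subgroup.zpowers x) := by exact_mod_cast h
      refine Nat.eq_of_mul_eq_mul_left (Nat.mul_pos hp.out.pos (Fintype.card_pos (α := Subgroup.zpowers x))) ?_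
      rw [mul_assoc p, h3, fixCard, hFdef]; ring
    · intro u _ hu
      refine Finset.sum_eq_zero fun s _ => Finset.sum_eq_zero fun y _ => ?_
      obtain ⟨v, -, hv1⟩ := exists_pairing_one ⊤ (a := aF) (u := u) (fun h => hu (Subtype.ext (hF1 u u.2
        fun w hw => h ⟨w, hw⟩ trivial))) haltF
      rw [eq_zero_of_central_translate (hψ q) (hcenP zP rfl) (hψz q) (g := (Heis.equivProd.symm (u, s), y)) ?_,
        zero_mul]
      rw [← isClassFunction (isCharacter_of_irr (hψ q)) (Heis.equivProd.symm (u, s), y) (⟨v, 0⟩, 1)]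
      congr 1
      refine Prod.ext ?_ (by simp [zP])
      simp only [Prod.fst_mul, Prod.fst_inv, zP, Heis.equivProd, Equiv.coe_fn_symm_mk]
      rw [Heis.conj_formula haltF hp2, hv1]
      ext <;> simp [zed, add_comm]
    · exact fun h => absurd (Finset.mem_univ _) h
  have hr0 : 0 < r := by
    rcases Nat.eq_zero_or_pos r with rfl | h
    · have h1 := congrFun hs 1
      simp only [map_one, Finset.univ_eq_empty, Finset.sum_empty, Pi.zero_apply] at h1
      exact absurd h1 (apply_one_ne_zero η.2)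
    · exact h
  set d0 := charDegree (ψ ⟨0, hr0⟩) with hd0def
  have hdeq : ∀ q, charDegree (ψ q) = d0 := fun q =>
    Nat.mul_self_inj.1 ((hψ2 q).trans (hψ2 ⟨0, hr0⟩).symm)
  have hd0pos : 0 < d0 := charDegree_pos (hψ _)
  let yx : Heis aF × Subgroup.zpowers x := (1, ⟨x, Subgroup.mem_zpowers x⟩)
  set μ : Fin r → ℂ := fun q => ψ q yx / ψ q 1 with hμ
  have hμR : ∀ q, μ q ∈ Rz N := by
    intro q
    refine root_mem_Rz hN ((orderOf_dvd_natCard x).trans hCN) ?_
    have hy : yx ^ orderOf x = 1 := Prod.ext (one_pow _) (Subtype.ext (pow_orderOf_eq_one x))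
    have h := central_pow (hψ q) (hcenP yx rfl) (orderOf x)
    rw [hy] at h
    exact (mul_eq_left₀ (apply_one_ne_zero (hψ q))).1 h.symm
  set T : ℂ := ∑ q, μ q with hT
  have hWT : W x = (d0 : ℂ) * T := by
    have h1 := congrFun hs yx
    rw [Finset.sum_apply] at h1
    rw [hT, Finset.mul_sum, hW]
    show χ (j x) = _
    rw [← hπj ⟨x, Subgroup.mem_zpowers x⟩]
    refine h1.trans (Finset.sum_congr rfl fun q _ => ?_)
    rw [hμ, ← hdeq q, ← apply_one (isCharacter_of_irr (hψ q)), mul_div_cancel₀ _ (apply_one_ne_zero (hψ q))]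
  have hTT : T * conj T = 1 := by
    have h := hnormW x
    rw [hWT, map_mul, Complex.conj_natCast, ← hψ2 ⟨0, hr0⟩, ← hd0def, Nat.cast_mul] at h
    refine mul_left_cancel₀ (mul_ne_zero (Nat.cast_ne_zero.2 hd0pos.ne') (Nat.cast_ne_zero.2 hd0pos.ne') : ((d0 : ℂ) * d0) ≠ 0) ?_
    linear_combination h
  have hdvd : d0 ∣ d := by
    rw [← Nat.pow_dvd_pow_iff (n := 2) two_ne_zero, sq, sq, hd2, hψ2 ⟨0, hr0⟩]
    exact fixCard_dvd ρ x
  obtain ⟨e, he⟩ := hdvd
  refine ⟨(e : ℂ) * conj T, mul_mem (natCast_mem _ e) (conj_mem_Rz hN (sum_mem fun q _ => hμR q)), ?_, fun hne => ?_⟩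
  · rw [hW1, hWT, he, Nat.cast_mul]
    linear_combination ((d0 : ℂ) * e) * hTT
  · refine memLocalIdeal_mul_right hM ((memLocalIdeal_natCast_iff hM e).2 ?_)
      (memLocalRing_of_mem_Rz hM hN (conj_mem_Rz hN (sum_mem fun q _ => hμR q)))
    by_contra hpe
    have hee : e * e ∣ Nat.card S := ⟨d0 * d0, by rw [← hd2, he]; ring⟩
    rw [Module.natCard_eq_pow_finrank (K := ZMod p), Nat.card_zmod] at hee
    obtain ⟨k, -, hk⟩ := (Nat.dvd_prime_pow hp.out).1 hee
    rcases Nat.eq_zero_or_pos k with rfl | hk0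
    · have he1 : e = 1 := Nat.eq_one_of_mul_eq_one_right (by rwa [pow_zero] at hk)
      refine hne ?_
      rw [← hψ2 ⟨0, hr0⟩, ← hd2, he, he1, mul_one, hd0def]
    · exact hpe ((or_self_iff).1 ((hp.out.dvd_mul).1 (hk ▸ dvd_pow_self p hk0.ne')))

end CfsgLib.RealVector
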