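import Cfsg.Agent.RealVector.Decomp
import Cfsg.Agent.CharBasics.Knorr
import Cfsg.Agent.S0887

/-!
`k(GV) ≤ |V|` when some vector has a stabiliser with a faithful self-dual submodule.
-/

set_option autoImplicit false

namespace CfsgLib.RealVector

open Polynomial Cfsg CfsgLib.CharBasics CfsgLib.Blocks
open scoped ComplexConjugate

theorem char_apply_mem_Rz {G : Type*} [Group G] [Finite G] {χ : G → ℂ} (h : IsCharacter G χ) {N : ℕ} (hN : N ≠ 0)
    {g : G} (hg : orderOf g ∣ N) : χ g ∈ Rz N := by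
  obtain ⟨lam, hl, hv⟩ := exists_eigen h g
  rw [show χ g = ∑ i, lam i by simpa using hv 1]
  exact sum_mem fun i _ => root_mem_Rz hN hg (hl i)

theorem char_poly {G : Type*} [Group G] [Finite G] {χ : G → ℂ} (h : IsCharacter G χ) {N : ℕ} (hN : N ≠ 0)
    {g : G} (hg : orderOf g ∣ N) : ∃ P : ℤ[X], ∀ j : ℕ, χ (g ^ j) = aeval (zetaRoot N ^ j) P := by
  obtain ⟨lam, hl, hv⟩ := exists_eigen h g
  haveI : NeZero N := ⟨hN⟩
  have hlam : ∀ i, ∃ e < N, zetaRoot N ^ e = lam i := fun i =>
    (zetaRoot_prim hN).eq_pow_of_pow_eq_one (by obtain ⟨d, hd⟩ := hg; rw [hd, pow_mul, hl i, one_pow])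
  choose e he heq using hlam
  refine ⟨∑ i, X ^ e i, fun j => ?_⟩
  rw [hv, map_sum]
  refine Finset.sum_congr rfl fun i _ => ?_
  rw [map_pow, aeval_X, ← heq i, ← pow_mul, ← pow_mul, mul_comm]

variable {X : Type*} [Group X] [Finite X]

/-- `x ↦ χ (v x)` averages integrally. -/
theorem test_translate {p : ℕ} {C : Subgroup X} [Fintype C] {N : ℕ} (hN : N ≠ 0) (hpN : p ∣ N) {v : X}
    (hvp : v ^ p = 1) (hcomm : ∀ c ∈ C, Commute v c) {χ : X → ℂ} (hχ : IsCharacter X χ) :
    Test N (fun x : C => χ (v * x)) := by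
  classical
  intro ψ hψ
  let Z := Subgroup.zpowers v
  have hc : ∀ (a : Z) (c : C), Commute (a : X) (c : X) := fun a c => by
    obtain ⟨i, hi⟩ := a.2
    exact hi ▸ (hcomm c c.2).zpow_left i
  let π : Z × C →* X :=
    { toFun := fun z => (z.1 : X) * (z.2 : X)
      map_one' := by simp
      map_mul' := fun x y => by
        simp only [Prod.fst_mul, Prod.snd_mul, Subgroup.coe_mul]
        rw [mul_assoc, ← mul_assoc (y.1 : X), (hc y.1 x.2).eq]
        simp only [mul_assoc] }
  have hF : IsCharacter (Z × C) (fun z => χ (π z) * ψ z.2) :=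
    CharBasics.isCharacter_mul (CharBasics.isCharacter_comp hχ π)
      (CharBasics.isCharacter_comp hψ (MonoidHom.snd Z C))
  let N1 : Subgroup (Z × C) := (⊥ : Subgroup Z).prod ⊤
  haveI : Fintype N1 := Fintype.ofFinite _
  have hN1 := isCharacter_cosetAvg N1 hF
  let v' : Z × C := (⟨v, Subgroup.mem_zpowers v⟩, 1)
  have hmem := char_apply_mem_Rz hN1 hN (g := v') ((orderOf_dvd_of_pow_eq_one (n := p)
    (Prod.ext (Subtype.ext (by simpa [v'] using hvp)) (one_pow _))).trans hpN)
  let e : C ≃ N1 :=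
    { toFun := fun c => ⟨(1, c), ⟨Subgroup.one_mem _, trivial⟩⟩
      invFun := fun m => (m : Z × C).2
      left_inv := fun _ => rfl
      right_inv := fun m => Subtype.ext (Prod.ext (Subgroup.mem_bot.1 m.2.1).symm rfl) }
  simp only [Nat.card_congr e.symm] at hmem
  rw [← Equiv.sum_comp e] at hmem
  refine (congrArg (fun s => (Nat.card C : ℂ)⁻¹ * s) (Finset.sum_congr rfl fun c _ => ?_)) ▸ hmem
  simp [π, v', e, mul_comm]

/-- The second moment of a weighted section. -/
theorem moment_le {p : ℕ} [Fact p.Prime] (V : Subgroup X) [V.Normal] (hVab : ∀ a ∈ V, ∀ b ∈ V, a * b = b * a)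
    (G : Subgroup X) (hGV : Subgroup.IsComplement' V G) (v : X) (C : Subgroup X) [Fintype C]
    (hC : C = G ⊓ Subgroup.centralizer ({v} : Set X)) (hpC : ¬ p ∣ Nat.card C) {w : X} (hw : w ∈ V) (hwp : w ^ p = 1)
    (hwv : ∀ g : X, Commute g w ↔ Commute g v) (Φ : C → ℂ) (hΦ : IsClassFunction C Φ)
    (hb : ∀ x : C, ‖Φ x‖ ^ 2 * (Nat.card (V ⊓ Subgroup.centralizer ({(x : X)} : Set X) : Subgroup X) : ℝ) ≤ Nat.card V)
    [Fintype (IrrCharacter X)] :
    ∑ χ : IrrCharacter X, ‖∑ x : C, Φ x * (χ : X → ℂ) (w * x)‖ ^ 2 ≤ (Nat.card C : ℝ) ^ 2 * Nat.card V := by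
  classical
  haveI : Fintype X := Fintype.ofFinite X
  have hp : p.Prime := Fact.out
  have hCv : ∀ c : C, Commute (c : X) v := fun c => by
    exact Subgroup.mem_centralizer_singleton_iff.1 ((SetLike.ext_iff.1 hC (c : X)).1 c.2).2
  have hCw : ∀ c : C, Commute (c : X) w := fun c => (hwv _).2 (hCv c)
  -- the two parts of `w * x`
  have hparts : ∀ x : C, ∃ i k : ℕ, ∀ y : C, orderOf (y : X) = orderOf (x : X) →
      (w * y) ^ i = w ∧ (w * y) ^ k = (y : X) := by
    intro x
    have hcop : (orderOf w).Coprime (orderOf (x : X)) := by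
      refine (Nat.Coprime.coprime_dvd_left (orderOf_dvd_of_pow_eq_one hwp) ?_)
      refine Nat.Coprime.coprime_dvd_right ?_ (hp.coprime_iff_not_dvd.2 hpC)
      rw [Subgroup.orderOf_coe]; exact orderOf_dvd_natCard x
    obtain ⟨m1, hm1⟩ := exists_pow_eq_self_of_coprime (x := w) (n := orderOf (x : X)) hcop.symm
    refine ⟨orderOf (x : X) * m1, ?_⟩
    obtain ⟨m2, hm2⟩ := exists_pow_eq_self_of_coprime (x := (x : X)) (n := orderOf w) hcop
    refine ⟨orderOf w * m2, fun y hy => ⟨?_, ?_⟩⟩
    · rw [pow_mul, (hCw y).symm.mul_pow, ← hy, pow_orderOf_eq_one, mul_one, hy, hm1]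
    · rw [pow_mul, (hCw y).symm.mul_pow, pow_orderOf_eq_one, one_mul, ← pow_mul]
      have h : orderOf w * m2 ≡ 1 [MOD orderOf (x : X)] := by
        have h1 : (x : X) ^ (orderOf w * m2) = (x : X) ^ 1 := by rw [pow_mul, hm2, pow_one]
        exact pow_eq_pow_iff_modEq.1 h1
      rw [← hy] at h
      rw [pow_eq_pow_iff_modEq.2 h, pow_one]
  -- conjugacy
  have hdecomp : ∀ (x y : C) (g : X), g * (w * x) * g⁻¹ = w * y →
      ∃ (a : X) (c : C), a ∈ V ∧ g = a * c ∧ c * x * c⁻¹ = y ∧ Commute a (y : X) := by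
    intro x y g hg
    have hord : orderOf (w * (y : X)) = orderOf (w * (x : X)) := by
      rw [← hg]; exact orderOf_injective (MulAut.conj g).toMonoidHom (MulAut.conj g).injective (w * x)
    obtain ⟨i, k, hik⟩ := hparts x
    obtain ⟨h1, h2⟩ := hik x rfl
    have hy : orderOf (y : X) = orderOf (x : X) := by
      have e : ∀ z : C, orderOf (w * (z : X)) = orderOf w * orderOf (z : X) := fun z => by
        refine (hCw z).symm.orderOf_mul_eq_mul_orderOf_of_coprime ?_
        refine Nat.Coprime.coprime_dvd_left (orderOf_dvd_of_pow_eq_one hwp) ?_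
        refine Nat.Coprime.coprime_dvd_right ?_ (hp.coprime_iff_not_dvd.2 hpC)
        rw [Subgroup.orderOf_coe]; exact orderOf_dvd_natCard z
      rw [e, e] at hord
      exact Nat.eq_of_mul_eq_mul_left (orderOf_pos w) hord
    obtain ⟨h3, h4⟩ := hik y hy
    have hgw : g * w * g⁻¹ = w := by
      have := congrArg (fun z => z ^ i) hg
      simp only [conj_pow, h1, h3] at this
      exact this
    have hgx : g * (x : X) * g⁻¹ = y := by
      have := congrArg (fun z => z ^ k) hg
      simp only [conj_pow, h2, h4] at this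
      exact this
    obtain ⟨⟨a, c⟩, he : (a : X) * (c : X) = g⟩ := hGV.2 g
    have hgv : Commute g v := (hwv g).1 (mul_inv_eq_iff_eq_mul.1 hgw)
    have hav : Commute (a : X) v := by
      have h1 : Commute (a : X) w := hVab a a.2 w hw
      exact (hwv _).1 h1
    have hcv : Commute (c : X) v := by
      have h := hav.inv_left.mul_left hgv
      rwa [← he, inv_mul_cancel_left] at h
    have hcC : (c : X) ∈ C := by rw [hC]; exact ⟨c.2, Subgroup.mem_centralizer_singleton_iff.2 hcv.eq⟩
    set z : C := ⟨c, hcC⟩ * x * ⟨c, hcC⟩⁻¹ with hz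
    have hz' : (a : X) * (z : X) * (a : X)⁻¹ = y := by
      rw [← hgx, ← he, hz]; simp [mul_assoc]
    have hzy : z = y := by
      have hGz : ∀ u : C, (u : X) ∈ G := fun u => ((SetLike.ext_iff.1 hC (u : X)).1 u.2).1
      have hmem : (z : X)⁻¹ * (y : X) ∈ V ⊓ G := by
        refine ⟨?_, G.mul_mem (G.inv_mem (hGz z)) (hGz y)⟩
        rw [← hz', show (z : X)⁻¹ * ((a : X) * (z : X) * (a : X)⁻¹) = ((z : X)⁻¹ * (a : X) * (z : X)⁻¹⁻¹) * (a : X)⁻¹ by
          group]
        exact V.mul_mem (Subgroup.Normal.conj_mem inferInstance _ a.2 _) (V.inv_mem a.2)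
      rw [hGV.disjoint.eq_bot, Subgroup.mem_bot, inv_mul_eq_one] at hmem
      exact Subtype.ext hmem
    rw [hzy] at hz'
    exact ⟨a, ⟨c, hcC⟩, a.2, he.symm, hz ▸ hzy, mul_inv_eq_iff_eq_mul.1 hz'⟩
  have hconj : ∀ x y : C, IsConj (w * (x : X)) (w * y) ↔ IsConj x y := by
    intro x y
    constructor
    · intro h
      obtain ⟨g, hg⟩ := isConj_iff.1 h
      obtain ⟨a, c, -, -, hcxy, -⟩ := hdecomp x y g hg
      exact isConj_iff.2 ⟨c, hcxy⟩
    · intro h
      obtain ⟨c, rfl⟩ := isConj_iff.1 h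
      refine isConj_iff.2 ⟨c, ?_⟩
      simp only [Subgroup.coe_mul, Subgroup.coe_inv]
      rw [← mul_assoc, (hCw c).eq]; group
  have hcent : ∀ x : C, Nat.card (Subgroup.centralizer ({w * (x : X)} : Set X)) ≤
      Nat.card (V ⊓ Subgroup.centralizer ({(x : X)} : Set X) : Subgroup X) *
        Nat.card (Subgroup.centralizer ({x} : Set C)) := by
    intro x
    rw [← Nat.card_prod]
    have hdec : ∀ g : Subgroup.centralizer ({w * (x : X)} : Set X), ∃ z :
        (V ⊓ Subgroup.centralizer ({(x : X)} : Set X) : Subgroup X) × Subgroup.centralizer ({x} : Set C),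
        (z.1 : X) * ((z.2 : C) : X) = g := by
      intro g
      obtain ⟨a, c, ha, he, hcx, hax⟩ := hdecomp x x g
        (mul_inv_eq_iff_eq_mul.2 (Subgroup.mem_centralizer_singleton_iff.1 g.2))
      exact ⟨(⟨a, ha, Subgroup.mem_centralizer_singleton_iff.2 hax.eq⟩,
        ⟨c, Subgroup.mem_centralizer_singleton_iff.2 (mul_inv_eq_iff_eq_mul.1 hcx)⟩), he.symm⟩
    choose z hz using hdec
    exact Nat.card_le_card_of_injective z fun x y h => Subtype.ext (by rw [← hz x, ← hz y, h])
  have horb : ∀ x : C, (Finset.univ.filter fun y : C => IsConj x y).card *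
      Nat.card (Subgroup.centralizer ({x} : Set C)) = Nat.card C := by
    intro x
    have h := MulAction.card_orbit_mul_card_stabilizer_eq_card_group (ConjAct C) x
    simp only [← Nat.card_eq_fintype_card] at h
    rw [show Nat.card (ConjAct C) = Nat.card C from Nat.card_congr ConjAct.ofConjAct.toEquiv] at h
    rw [← h]
    congr 1
    · rw [← Fintype.card_subtype, ← Nat.card_eq_fintype_card]
      refine Nat.card_congr (Equiv.subtypeEquivRight fun y => ?_)
      rw [ConjAct.mem_orbit_conjAct, isConj_comm]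
    · exact Nat.card_congr (ConjAct.toConjAct.toEquiv.subtypeEquiv fun g => by
        show _ ↔ ConjAct.toConjAct g • x = x
        rw [Subgroup.mem_centralizer_singleton_iff, ConjAct.smul_def]
        exact mul_inv_eq_iff_eq_mul.symm)
  set a : C → ℝ := fun x => ‖Φ x‖ ^ 2 * ((Finset.univ.filter fun y : C => IsConj x y).card *
    Nat.card (Subgroup.centralizer ({w * (x : X)} : Set X)) : ℕ)
  have hexp : ((∑ χ : IrrCharacter X, ‖∑ x : C, Φ x * (χ : X → ℂ) (w * x)‖ ^ 2 : ℝ) : ℂ) = ((∑ x, a x : ℝ) : ℂ) := by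
    push_cast
    simp only [← Complex.mul_conj', map_sum, map_mul, Finset.sum_mul_sum]
    rw [Finset.sum_comm]
    refine Finset.sum_congr rfl fun x _ => ?_
    rw [Finset.sum_comm]
    have e : ∀ y : C, ∑ χ : IrrCharacter X, Φ x * (χ : X → ℂ) (w * x) * (conj (Φ y) * conj ((χ : X → ℂ) (w * y))) =
        if IsConj x y then Φ x * conj (Φ x) * (Nat.card (Subgroup.centralizer ({w * (x : X)} : Set X)) : ℂ) else 0 := by
      intro y
      rw [Finset.sum_congr rfl (fun χ _ => mul_mul_mul_comm _ _ _ _), ← Finset.mul_sum, sum_col]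
      by_cases h : IsConj x y
      · obtain ⟨c, hc⟩ := isConj_iff.1 h
        rw [if_pos ((hconj x y).2 h), if_pos h, show Φ y = Φ x by rw [← hc, hΦ]]
      · rw [if_neg (fun h' => h ((hconj x y).1 h')), if_neg h, mul_zero]
    rw [Finset.sum_congr rfl (fun y _ => e y), ← Finset.sum_filter, Finset.sum_const, nsmul_eq_mul]
    simp only [a]
    push_cast
    rw [← Complex.mul_conj']
    ring
  rw [Complex.ofReal_inj.1 hexp]
  calc ∑ x, a x ≤ ∑ _x : C, (Nat.card C : ℝ) * Nat.card V := Finset.sum_le_sum fun x _ => by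
        have h1 := Nat.mul_le_mul_left ((Finset.univ.filter fun y : C => IsConj x y).card) (hcent x)
        rw [mul_left_comm, horb] at h1
        simp only [a]
        calc _ ≤ ‖Φ x‖ ^ 2 * ((Nat.card (V ⊓ Subgroup.centralizer ({(x : X)} : Set X) : Subgroup X) * Nat.card C : ℕ) : ℝ) :=
              mul_le_mul_of_nonneg_left (Nat.cast_le.2 h1) (by positivity)
          _ ≤ _ := by
              rw [Nat.cast_mul, ← mul_assoc, mul_comm (Nat.card C : ℝ)]
              exact mul_le_mul_of_nonneg_right (hb x) (Nat.cast_nonneg _)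
    _ = _ := by rw [Finset.sum_const, Finset.card_univ, ← Nat.card_eq_fintype_card, nsmul_eq_mul]; ring

theorem main (p : ℕ) [Fact p.Prime] (V : Subgroup X) [V.Normal] (hVexp : ∀ v ∈ V, v ^ p = 1)
    (hidx : ¬ p ∣ V.index) (hself : Subgroup.centralizer (V : Set X) = V) (G : Subgroup X)
    (hGV : Subgroup.IsComplement' V G) (v : X) (hv : v ∈ V) (U : Subgroup X) (hUV : U ≤ V)
    (hUinv : ∀ h ∈ G, h * v * h⁻¹ = v → ∀ u ∈ U, h * u * h⁻¹ ∈ U)
    (hUfaith : ∀ h ∈ G, h * v * h⁻¹ = v → (∀ u ∈ U, h * u * h⁻¹ = u) → h = 1) (β : X → X → ZMod p)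
    (hβl : ∀ u ∈ U, ∀ u' ∈ U, ∀ w ∈ U, β (u * u') w = β u w + β u' w)
    (hβr : ∀ u ∈ U, ∀ w ∈ U, ∀ w' ∈ U, β u (w * w') = β u w + β u w')
    (hβinv : ∀ h ∈ G, h * v * h⁻¹ = v → ∀ u ∈ U, ∀ w ∈ U, β (h * u * h⁻¹) (h * w * h⁻¹) = β u w)
    (hβnd : ∀ u ∈ U, (∀ w ∈ U, β u w = 0) → u = 1) : Nat.card (ConjClasses X) ≤ Nat.card V := by
  classical
  haveI : Fintype X := Fintype.ofFinite X
  haveI : Fintype (IrrCharacter X) := Fintype.ofFinite _
  haveI : Fintype V := Fintype.ofFinite V
  have hp : p.Prime := Fact.out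
  obtain ⟨M, hM⟩ := exists_modular hp
  have hVab : ∀ a ∈ V, ∀ b ∈ V, a * b = b * a := fun a ha b hb => by
    have h : b ∈ Subgroup.centralizer (V : Set X) := hself.symm ▸ hb
    exact Subgroup.mem_centralizer_iff.1 h a ha
  set C : Subgroup X := G ⊓ Subgroup.centralizer ({v} : Set X) with hC
  haveI : Fintype C := Fintype.ofFinite C
  have hCG : ∀ c : C, (c : X) ∈ G := fun c => c.2.1
  have hCv : ∀ c : C, (c : X) * v * (c : X)⁻¹ = v := fun c =>
    mul_inv_eq_iff_eq_mul.2 (Subgroup.mem_centralizer_singleton_iff.1 c.2.2)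
  have hpC : ¬ p ∣ Nat.card C := fun h => hidx (h.trans
    ((Subgroup.card_dvd_of_le inf_le_left).trans (hGV.symm.index_eq_card).symm.dvd))
  set N := p * Nat.card X with hN'
  have hN : N ≠ 0 := Nat.mul_ne_zero hp.ne_zero Nat.card_pos.ne'
  have hpN : p ∣ N := dvd_mul_right _ _
  have hXN : Nat.card X ∣ N := dvd_mul_left _ _
  have hCN : Nat.card C ∣ N := (Subgroup.card_subgroup_dvd_card C).trans hXN
  -- the module
  letI : CommGroup U :=
    { (inferInstance : Group U) with mul_comm := fun a b => Subtype.ext (hVab a (hUV a.2) b (hUV b.2)) }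
  haveI : Finite (Additive U) := Finite.of_equiv U Additive.ofMul
  haveI : Module (ZMod p) (Additive U) := AddCommGroup.zmodModule (fun a => Subtype.ext (hVexp _ (hUV (Additive.toMul a).2)))
  let act : C → Additive U →+ Additive U := fun c => AddMonoidHom.mk'
    (fun a => Additive.ofMul ⟨(c : X) * ((Additive.toMul a : U) : X) * (c : X)⁻¹, hUinv _ (hCG c) (hCv c) _ (Additive.toMul a).2⟩)
    fun a b => Subtype.ext (by show (c : X) * (_ * _) * (c : X)⁻¹ = (c : X) * _ * (c : X)⁻¹ * ((c : X) * _ * (c : X)⁻¹); group)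
  let lin : C → Module.End (ZMod p) (Additive U) := fun c => (act c).toZModLinearMap p
  have hlin : ∀ (c : C) (a : Additive U),
      ((Additive.toMul (lin c a) : U) : X) = (c : X) * ((Additive.toMul a : U) : X) * (c : X)⁻¹ := fun c a => rfl
  let ρh : C →* Module.End (ZMod p) (Additive U) :=
    { toFun := lin
      map_one' := LinearMap.ext fun a => Additive.toMul.injective (Subtype.ext (by
        rw [hlin, Module.End.one_apply]; simp))
      map_mul' := fun c d => LinearMap.ext fun a => Additive.toMul.injective (Subtype.ext (by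
        rw [Module.End.mul_apply, hlin, hlin, hlin]; simp [mul_assoc])) }
  let ρ : Representation (ZMod p) C (Additive U) := ρh
  let b0 : Additive U →+ Additive U →+ ZMod p := AddMonoidHom.mk'
    (fun a => AddMonoidHom.mk' (fun c => β ((Additive.toMul a : U) : X) ((Additive.toMul c : U) : X))
      fun c d => hβr _ (Additive.toMul a).2 _ (Additive.toMul c).2 _ (Additive.toMul d).2)
    fun a b => AddMonoidHom.ext fun c => hβl _ (Additive.toMul a).2 _ (Additive.toMul b).2 _ (Additive.toMul c).2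
  let B : Additive U →ₗ[ZMod p] Additive U →ₗ[ZMod p] ZMod p :=
    (AddMonoidHom.mk' (fun a => (b0 a).toZModLinearMap p) fun a b => LinearMap.ext fun c =>
      by simp only [map_add, LinearMap.add_apply, AddMonoidHom.coe_toZModLinearMap, AddMonoidHom.add_apply]).toZModLinearMap p
  obtain ⟨θ, hθR, hθc, hθ1, hθn, hθM, k, hθG⟩ := hasTheta_of_form (M := M) (N := N) hM hN hpN hCN hpC
    _ (Additive U) le_rfl ρ B (fun c a b => hβinv _ (hCG c) (hCv c) _ (Additive.toMul a).2 _ (Additive.toMul b).2)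
    (fun a ha => Subtype.ext (hβnd ((Additive.toMul a : U) : X) (Additive.toMul a).2 fun w hw => by simpa [B, b0] using ha (Additive.ofMul ⟨w, hw⟩)))
  choose nn hnn hnle using hθn
  choose Q hQ using fun x => mem_Rz.1 (hθR x)
  have hfixU : ∀ x : C, fixCard ρ x = Nat.card (U ⊓ Subgroup.centralizer ({(x : X)} : Set X) : Subgroup X) := by
    intro x
    refine Nat.card_congr
      { toFun := fun a => ⟨((Additive.toMul (a : Additive U) : U) : X), (Additive.toMul (a : Additive U)).2, ?_⟩
        invFun := fun u => ⟨Additive.ofMul ⟨(u : X), u.2.1⟩, ?_⟩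
        left_inv := fun a => rfl
        right_inv := fun u => rfl }
    · have h := congrArg (fun z : Additive U => ((Additive.toMul z : U) : X)) a.2
      exact Subgroup.mem_centralizer_singleton_iff.2 (mul_inv_eq_iff_eq_mul.1 h).symm
    · exact Subtype.ext (mul_inv_eq_iff_eq_mul.2 (Subgroup.mem_centralizer_singleton_iff.1 u.2.2).symm)
  have hfaith : ∀ x : C, x ≠ 1 → fixCard ρ x ≠ Nat.card (Additive U) := by
    intro x hx h
    refine hx (Subtype.ext (hUfaith _ (hCG x) (hCv x) fun u hu => ?_))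
    exact congrArg (fun z : Additive U => ((Additive.toMul z : U) : X))
      ((fixCard_eq_iff ρ x).1 h (Additive.ofMul ⟨u, hu⟩))
  -- degrees
  haveI : IsMulCommutative V := ⟨⟨fun a b => Subtype.ext (hVab a a.2 b b.2)⟩⟩
  have hdeg : ∀ χ : IrrCharacter X, ¬ p ∣ charDegree (χ : X → ℂ) := by
    intro χ hd
    obtain ⟨η, hη⟩ := exists_restrict_constituent V χ
    have hη' : classInner (fun n : V => (χ : X → ℂ) n) (η : V → ℂ) ≠ 0 := by
      rw [classInner_comm]; simpa using hη
    have h := (Cfsg.Agent.S0887.result V _ χ.2 _ η.2 hη' (charDegree (χ : X → ℂ)) (charDegree (η : V → ℂ))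
      (apply_one (isCharacter_of_irr χ.2)) (apply_one (isCharacter_of_irr η.2))).2
    rw [charDegree_comm η.2, Nat.div_one] at h
    exact hidx (hd.trans h)
  -- the values
  choose P hP using fun (χ : IrrCharacter X) (x : C) =>
    char_poly (isCharacter_of_irr χ.2) hN (g := v * (x : X)) ((orderOf_dvd_natCard _).trans hXN)
  set a : IrrCharacter X → ℂ := fun χ => (Nat.card C : ℂ)⁻¹ * ∑ x : C, θ x * (χ : X → ℂ) (v * x)
  have hC0 : (Nat.card C : ℂ) ≠ 0 := Nat.cast_ne_zero.2 Nat.card_pos.ne'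
  have haR : ∀ χ, a χ ∈ Rz N := by
    intro χ
    refine mem_of_coprime_mul (a := Nat.card C) (b := p ^ k)
      ((hp.coprime_iff_not_dvd.2 hpC).pow_left k).symm ?_ ?_
    · simp only [a]
      rw [mul_inv_cancel_left₀ hC0]
      exact sum_mem fun x _ => mul_mem (hθR x)
        (char_apply_mem_Rz (isCharacter_of_irr χ.2) hN ((orderOf_dvd_natCard _).trans hXN))
    · have h := avg_mem hθG (test_translate (C := C) hN hpN (hVexp v hv)
        (fun c hc => (Subgroup.mem_centralizer_singleton_iff.1 hc.2).symm) (isCharacter_of_irr χ.2))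
      simp only [a, mul_left_comm ((p ^ k : ℕ) : ℂ), Finset.mul_sum] at h ⊢
      convert h using 3 with x
      push_cast
      ring
  choose A hA using fun χ => mem_Rz.1 (haR χ)
  have hane : ∀ χ, a χ ≠ 0 := by
    intro χ h0
    have hsum : ∑ x : C, θ x * (χ : X → ℂ) (v * x) = 0 := by
      simpa [a, hC0] using h0
    rw [← Finset.add_sum_erase _ _ (Finset.mem_univ (1 : C)), hθ1, Subgroup.coe_one, mul_one, one_mul] at hsum
    have h1 : MemLocalIdeal M ((χ : X → ℂ) v) := by
      rw [eq_neg_of_add_eq_zero_left hsum]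
      refine memLocalIdeal_neg (memLocalIdeal_sum hM _ fun x hx => ?_)
      exact memLocalIdeal_mul_right hM (hθM x (hfaith x (Finset.mem_erase.1 hx).1))
        (memLocalRing_of_mem_Rz hM hN (char_apply_mem_Rz (isCharacter_of_irr χ.2) hN ((orderOf_dvd_natCard _).trans hXN)))
    have h2 := memLocalIdeal_sub hM h1 (apply_sub_degree_mem hM (isCharacter_of_irr χ.2)
      (show v ^ p ^ 1 = 1 by rw [pow_one]; exact hVexp v hv))
    rw [sub_sub_cancel, apply_one (isCharacter_of_irr χ.2), memLocalIdeal_natCast_iff hM] at h2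
    exact hdeg χ h2
  -- the conjugates
  have hup : ∀ j ∈ coprimeResidues N,
      ∑ χ : IrrCharacter X, ‖aeval (zetaRoot N ^ j) (A χ)‖ ^ 2 ≤ (Nat.card V : ℝ) := by
    intro j hj
    have hjN : j.Coprime N := (Finset.mem_filter.1 hj).2
    have hjC : (Nat.card C).Coprime j := (hjN.coprime_dvd_right hCN).symm
    let e : C ≃ C := powCoprime hjC
    have he : ∀ x : C, e x = x ^ j := fun x => rfl
    set Φ : C → ℂ := fun y => aeval (zetaRoot N ^ j) (Q (e.symm y))
    have hΦc : IsClassFunction C Φ := by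
      intro x y
      show aeval _ (Q _) = aeval _ (Q _)
      refine aeval_transfer hN hjN ?_
      rw [hQ, hQ]
      have : e.symm (y * x * y⁻¹) = y * e.symm x * y⁻¹ := by
        rw [Equiv.symm_apply_eq, he, conj_pow, ← he, Equiv.apply_symm_apply]
      rw [this, hθc]
    obtain ⟨m, hm⟩ := exists_pow_eq_self_of_coprime (x := v)
      (hjN.coprime_dvd_right ((orderOf_dvd_natCard v).trans hXN))
    have hwv : ∀ g : X, Commute g (v ^ j) ↔ Commute g v := fun g =>
      ⟨fun h => hm ▸ h.pow_right m, fun h => h.pow_right j⟩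
    have hb : ∀ y : C, ‖Φ y‖ ^ 2 * (Nat.card (V ⊓ Subgroup.centralizer ({(y : X)} : Set X) : Subgroup X) : ℝ) ≤
        Nat.card V := by
      intro y
      obtain ⟨x, rfl⟩ := e.surjective y
      have hn : ‖Φ (e x)‖ ^ 2 = (nn x : ℝ) := by
        simp only [Φ, Equiv.symm_apply_apply]
        have h1 : aeval (zetaRoot N) (Q x * (Q x).comp (Polynomial.X ^ (N - 1))) = aeval (zetaRoot N) ((nn x : ℤ[X])) := by
          have h2 := conj_aeval hN 1 (Q x)
          rw [pow_one] at h2
          rw [map_mul, ← h2, hQ, hnn, map_natCast]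
        have h2 := aeval_transfer hN hjN h1
        rw [map_mul, ← conj_aeval hN j, Complex.mul_conj', map_natCast] at h2
        exact_mod_cast h2
      have hcx : Subgroup.centralizer ({((e x : C) : X)} : Set X) = Subgroup.centralizer ({(x : X)} : Set X) := by
        obtain ⟨m', hm'⟩ := exists_pow_eq_self_of_coprime (x := (x : X))
          (hjN.coprime_dvd_right ((orderOf_dvd_natCard (x : X)).trans hXN))
        ext g
        simp only [Subgroup.mem_centralizer_singleton_iff, he, Subgroup.coe_pow]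
        exact ⟨fun h => (hm' ▸ (show Commute g ((x : X) ^ j) from h).pow_right m').eq,
          fun h => ((show Commute g (x : X) from h).pow_right j).eq⟩
      rw [hn, hcx, ← Nat.cast_mul, Nat.cast_le]
      set Z := Subgroup.centralizer ({(x : X)} : Set X)
      have h1 := hnle x
      rw [hfixU] at h1
      have hcardU : Nat.card (Additive U) = Nat.card U := Nat.card_congr Additive.toMul
      rw [hcardU] at h1
      have hcard : ∀ H : Subgroup X, Nat.card H = (H ⊓ Z).relIndex H * Nat.card (H ⊓ Z : Subgroup X) := by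
        intro H
        have := Subgroup.relIndex_mul_relIndex ⊥ (H ⊓ Z) H bot_le inf_le_left
        rw [Subgroup.relIndex_bot_left, Subgroup.relIndex_bot_left] at this
        rw [← this, mul_comm]
      rw [hcard U] at h1
      have h2 := Nat.le_of_mul_le_mul_right h1 Nat.card_pos
      rw [Subgroup.inf_relIndex_left] at h2
      rw [hcard V, Subgroup.inf_relIndex_left]
      exact Nat.mul_le_mul_right _ (h2.trans (Subgroup.relIndex_le_of_le_right hUV (Subgroup.index_ne_zero_of_finite (H := Z.subgroupOf V))))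
    have h := moment_le V hVab G hGV v C hC hpC (V.pow_mem hv j) (by rw [pow_right_comm, hVexp v hv, one_pow])
      hwv Φ hΦc hb
    have hval : ∀ χ : IrrCharacter X, ∑ y : C, Φ y * (χ : X → ℂ) (v ^ j * y) =
        (Nat.card C : ℂ) * aeval (zetaRoot N ^ j) (A χ) := by
      intro χ
      have h1 : aeval (zetaRoot N) (∑ x : C, Q x * P χ x) = aeval (zetaRoot N) ((Nat.card C : ℤ[X]) * A χ) := by
        rw [map_sum, map_mul, map_natCast, hA, Finset.sum_congr rfl (fun x _ => by
          rw [map_mul, hQ, show aeval (zetaRoot N) (P χ x) = (χ : X → ℂ) (v * x) by simpa using (hP χ x 1).symm])]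
        simp only [a]
        rw [mul_inv_cancel_left₀ hC0]
      have h2 := aeval_transfer hN hjN h1
      rw [map_sum, map_mul, map_natCast] at h2
      rw [← h2, ← Equiv.sum_comp e]
      refine Finset.sum_congr rfl fun x _ => ?_
      rw [map_mul, ← hP χ x j, (show Commute v (x : X) from (Subgroup.mem_centralizer_singleton_iff.1 x.2.2).symm).mul_pow]
      simp only [Φ, Equiv.symm_apply_apply]
      simp only [he, Subgroup.coe_pow]
    simp only [hval, norm_mul, Complex.norm_natCast, mul_pow, ← Finset.mul_sum] at h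
    exact le_of_mul_le_mul_left h (pow_pos (by exact_mod_cast Nat.card_pos) 2)
  have hlow : ∀ χ, ((coprimeResidues N).card : ℝ) ≤ ∑ j ∈ coprimeResidues N, ‖aeval (zetaRoot N ^ j) (A χ)‖ ^ 2 :=
    fun χ => Knorr.card_le_sum_conjugates hN (A χ) (by rw [hA]; exact hane χ)
  have h1 := Finset.sum_le_sum (s := (Finset.univ : Finset (IrrCharacter X))) fun χ _ => hlow χ
  rw [Finset.sum_comm] at h1
  have h2 := h1.trans (Finset.sum_le_sum hup)
  rw [Finset.sum_const, Finset.card_univ, ← Nat.card_eq_fintype_card, card_irr, Finset.sum_const, nsmul_eq_mul,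
    nsmul_eq_mul, mul_comm] at h2
  exact_mod_cast le_of_mul_le_mul_left h2 (by exact_mod_cast coprimeResidues_card_pos hN)

end CfsgLib.RealVector
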